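import Cfsg.Agent.Lib.Helper85.AltModel

set_option autoImplicit false
set_option linter.unusedSectionVars false
set_option linter.unusedVariables false

/-! S5165 farm (helper85), piece [B]: basics on the model. -/

namespace Cfsg.Agent.Lib.Helper91.AltB

open Equiv Equiv.Perm Cfsg.Agent.Lib.Helper85.AltM

theorem sign_addRight_two : ∀ a : ZMod 2, sign (Equiv.addRight a) = 1 → a = 0 := by decide

variable {p : ℕ} [Fact p.Prime] {κ ε : Type} [Fintype κ] [DecidableEq κ] [Fintype ε] [DecidableEq ε]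

theorem sign_addRight_add (a b : ZMod p) :
    sign (Equiv.addRight (a + b)) = sign (Equiv.addRight a) * sign (Equiv.addRight b) := by
  rw [← Perm.sign_mul]
  congr 1
  ext x
  simp [add_comm, add_left_comm]

theorem sign_addRight_zero : sign (Equiv.addRight (0 : ZMod p)) = 1 := by
  have : Equiv.addRight (0 : ZMod p) = 1 := by
    ext x
    simp
  rw [this, Perm.sign_one]

theorem sign_tr_eq (f : Idx p κ → ZMod p) : sign (tr f) = sign (Equiv.addRight (∑ i, f i)) := by
  rw [sign_tr]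
  have key : ∀ s : Finset (Idx p κ),
      ∏ i ∈ s, sign (Equiv.addRight (f i)) = sign (Equiv.addRight (∑ i ∈ s, f i)) := by
    intro s
    induction s using Finset.induction_on with
    | empty => simp
    | insert a s ha ih => rw [Finset.prod_insert ha, Finset.sum_insert ha, sign_addRight_add, ih]
  exact key _

theorem sign_eq_one_of_pow {α : Type*} [Fintype α] [DecidableEq α] (hp : p ≠ 2) (g : Perm α) (k : ℕ)
    (hg : g ^ p ^ k = 1) : sign g = 1 := by
  have h1 : sign g ^ p ^ k = 1 := by rw [← map_pow, hg, map_one]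
  rcases Int.units_eq_one_or (sign g) with h | h
  · exact h
  · exfalso
    rw [h] at h1
    have hodd : Odd (p ^ k) := ((Fact.out : p.Prime).odd_of_ne_two hp).pow
    rw [hodd.neg_one_pow] at h1
    exact absurd h1 (by decide)

theorem sum_eq_zero_of_sign_tr (hp : p = 2) (f : Idx p κ → ZMod p) (hf : sign (tr f) = 1) : ∑ i, f i = 0 := by
  subst hp
  rw [sign_tr_eq] at hf
  exact sign_addRight_two _ hf

theorem mem_normalizer_Ahat_of (g : Perm (M p κ ε))
    (h1 : ∀ f : Idx p κ → ZMod p, ∃ f' : Idx p κ → ZMod p, g * J ε (tr f) * g⁻¹ = J ε (tr f'))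
    (h2 : ∀ f : Idx p κ → ZMod p, ∃ f' : Idx p κ → ZMod p, g⁻¹ * J ε (tr f) * g = J ε (tr f')) :
    g ∈ Subgroup.normalizer (Ahat p κ ε : Set (Perm (M p κ ε))) := by
  rw [Subgroup.mem_normalizer_iff]
  intro h
  constructor
  · rintro ⟨f, rfl⟩
    obtain ⟨f', hf'⟩ := h1 f
    exact ⟨f', hf'⟩
  · rintro ⟨f, hf⟩
    obtain ⟨f', hf'⟩ := h2 f
    refine ⟨f', ?_⟩
    rw [← hf', ← hf]
    group

theorem J_tr_mem_normalizer (d : Idx p κ → ZMod p) :
    J ε (tr d) ∈ Subgroup.normalizer (Ahat p κ ε : Set (Perm (M p κ ε))) := by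
  apply mem_normalizer_Ahat_of
  · intro f
    refine ⟨f, ?_⟩
    rw [← map_inv, ← map_mul, ← map_mul, tr_comm, mul_inv_cancel_right]
  · intro f
    refine ⟨f, ?_⟩
    rw [← map_inv, ← map_mul, ← map_mul, mul_assoc, tr_comm, inv_mul_cancel_left]

theorem J_ml_mem_normalizer (l : Idx p κ → (ZMod p)ˣ) :
    J ε (ml l) ∈ Subgroup.normalizer (Ahat p κ ε : Set (Perm (M p κ ε))) := by
  apply mem_normalizer_Ahat_of
  · intro f
    exact ⟨_, by rw [← map_inv, ← map_mul, ← map_mul, ml_conj_tr]⟩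
  · intro f
    have := ml_conj_tr l⁻¹ f
    rw [ml_inv, inv_inv] at this
    exact ⟨_, by rw [← map_inv, ← map_mul, ← map_mul, this]⟩

theorem J_bl_mem_normalizer (σ : Perm (Idx p κ)) :
    J ε (bl σ) ∈ Subgroup.normalizer (Ahat p κ ε : Set (Perm (M p κ ε))) := by
  apply mem_normalizer_Ahat_of
  · intro f
    exact ⟨_, by rw [← map_inv, ← map_mul, ← map_mul, bl_conj_tr]⟩
  · intro f
    have := bl_conj_tr σ⁻¹ f
    rw [bl_inv, inv_inv] at this
    exact ⟨_, by rw [← map_inv, ← map_mul, ← map_mul, this]⟩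

theorem J_W_mem_normalizer_Ahat (d : Idx p κ → ZMod p) (l : Idx p κ → (ZMod p)ˣ) (σ : Perm (Idx p κ)) :
    J ε (tr d * ml l * bl σ) ∈ Subgroup.normalizer (Ahat p κ ε : Set (Perm (M p κ ε))) := by
  rw [map_mul, map_mul]
  exact mul_mem (mul_mem (J_tr_mem_normalizer d) (J_ml_mem_normalizer l)) (J_bl_mem_normalizer σ)

theorem sign_conj {α : Type*} [Fintype α] [DecidableEq α] (g h : Perm α) : sign (g * h * g⁻¹) = sign h := by
  rw [Perm.sign_mul, Perm.sign_mul, Perm.sign_inv, mul_right_comm, Int.units_mul_self, one_mul]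

theorem normalizer_Ahat_le_normalizer_AA :
    Subgroup.normalizer (Ahat p κ ε : Set (Perm (M p κ ε))) ≤ Subgroup.normalizer (AA p κ ε : Set (Perm (M p κ ε))) := by
  intro g hg
  rw [Subgroup.mem_normalizer_iff] at hg ⊢
  intro h
  rw [mem_AA, mem_AA, sign_conj]
  constructor
  · rintro ⟨h1, h2⟩
    exact ⟨(hg h).1 h1, h2⟩
  · rintro ⟨h1, h2⟩
    exact ⟨(hg h).2 h1, h2⟩

theorem isPGroup_Ahat : IsPGroup p (Ahat p κ ε) := by
  rintro ⟨g, f, rfl⟩
  refine ⟨1, ?_⟩
  apply Subtype.ext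
  rw [pow_one]
  show (J ε (tr f)) ^ p = 1
  rw [← map_pow, tr_pow_p, map_one]

end Cfsg.Agent.Lib.Helper91.AltB
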