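import Cfsg.Agent.Lib.Helper85.AltModel
import Cfsg.Agent.Lib.Helper91.AltB

set_option autoImplicit false
set_option linter.unusedSectionVars false
set_option linter.unusedVariables false

/-! S5165 farm (helper85), piece [P4a]: even block permutations are generated by `p`-elements (`p` odd). -/

namespace Cfsg.Agent.Lib.Helper91.AltP4a

open Equiv Equiv.Perm Cfsg.Agent.Lib.Helper85.AltM Cfsg.Agent.Lib.Helper91.AltB

variable {p : ℕ} [Fact p.Prime] {κ ε : Type} [Fintype κ] [DecidableEq κ] [Fintype ε] [DecidableEq ε]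

/-- the closure of the `p`-elements of a subgroup `K` is normalized by `K`. -/
theorem conj_mem_closure {Γ : Type*} [Group Γ] (K : Subgroup Γ) (q : ℕ) {w x : Γ} (hw : w ∈ K)
    (hx : x ∈ Subgroup.closure {y : Γ | y ∈ K ∧ ∃ k : ℕ, y ^ q ^ k = 1}) :
    w * x * w⁻¹ ∈ Subgroup.closure {y : Γ | y ∈ K ∧ ∃ k : ℕ, y ^ q ^ k = 1} := by
  induction hx using Subgroup.closure_induction with
  | mem y hy =>
    obtain ⟨h1, k, hk⟩ := hy
    apply Subgroup.subset_closure
    refine ⟨K.mul_mem (K.mul_mem hw h1) (K.inv_mem hw), k, ?_⟩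
    rw [conj_pow, hk, mul_one, mul_inv_cancel]
  | one => rw [mul_one, mul_inv_cancel]; exact Subgroup.one_mem _
  | mul x y _ _ hx hy =>
    have : w * (x * y) * w⁻¹ = (w * x * w⁻¹) * (w * y * w⁻¹) := by group
    rw [this]
    exact Subgroup.mul_mem _ hx hy
  | inv x _ hx =>
    have : w * x⁻¹ * w⁻¹ = (w * x * w⁻¹)⁻¹ := by group
    rw [this]
    exact Subgroup.inv_mem _ hx

/-- `bl` as a homomorphism. -/
def blHom : Perm (Idx p κ) →* Perm (X p κ) where
  toFun := bl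
  map_one' := bl_one
  map_mul' := bl_mul

theorem T_nsmul (s : ZMod p) (k : ℕ) : T (κ := κ) (k • s) = T s ^ k := by
  induction k with
  | zero => simp [T_zero]
  | succ k ih => rw [succ_nsmul, T_add, ih, pow_succ]

theorem T_pow_p (s : ZMod p) : T (κ := κ) s ^ p = 1 := by
  rw [← T_nsmul]
  have : p • s = 0 := by simp
  rw [this, T_zero]

theorem two_ne_zero_of (hp : p ≠ 2) : (2 : ZMod p) ≠ 0 := by
  intro h
  have h2 : ((2 : ℕ) : ZMod p) = 0 := by exact_mod_cast h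
  rw [ZMod.natCast_eq_zero_iff] at h2
  exact hp ((Nat.prime_dvd_prime_iff_eq Fact.out Nat.prime_two).1 h2)

theorem gen_odd_bl (hp : p ≠ 2) (σ : Perm (Idx p κ)) (hσ : sign σ = 1) :
    J ε (bl σ) ∈ Subgroup.closure {y : Perm (M p κ ε) |
      y ∈ Subgroup.normalizer (Ahat p κ ε : Set (Perm (M p κ ε))) ∧ ∃ k : ℕ, y ^ p ^ k = 1} := by
  set C := Subgroup.closure {y : Perm (M p κ ε) |
      y ∈ Subgroup.normalizer (Ahat p κ ε : Set (Perm (M p κ ε))) ∧ ∃ k : ℕ, y ^ p ^ k = 1} with hC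
  set H : Subgroup (Perm (Idx p κ)) := C.comap ((J ε).comp blHom) with hH
  have hmem : ∀ τ : Perm (Idx p κ), τ ∈ H ↔ J ε (bl τ) ∈ C := fun τ => Iff.rfl
  have hnorm : ∀ ρ τ : Perm (Idx p κ), τ ∈ H → ρ * τ * ρ⁻¹ ∈ H := by
    intro ρ τ hτ
    rw [hmem] at hτ ⊢
    rw [bl_mul, bl_mul, bl_inv, map_mul, map_mul, map_inv]
    exact conj_mem_closure _ p (J_bl_mem_normalizer ρ) hτ
  have hT : T (κ := κ) (1 : ZMod p) ∈ H := by
    rw [hmem]
    apply Subgroup.subset_closure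
    refine ⟨J_bl_mem_normalizer _, 1, ?_⟩
    rw [pow_one, ← map_pow]
    have : bl (T (κ := κ) (1 : ZMod p)) ^ p = 1 := by
      have h1 : bl (T (κ := κ) (1 : ZMod p)) ^ p = blHom (T (κ := κ) (1 : ZMod p) ^ p) := by
        rw [map_pow]; rfl
      rw [h1, T_pow_p, map_one]
    rw [this, map_one]
  have h01 : (Sum.inl (1 : ZMod p) : Idx p κ) ≠ Sum.inl 0 := by
    intro h
    exact one_ne_zero (Sum.inl_injective h)
  have h12 : (Sum.inl (1 : ZMod p) : Idx p κ) ≠ Sum.inl 2 := by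
    intro h
    have h' : (1 : ZMod p) = 2 := Sum.inl_injective h
    have : (1 : ZMod p) = 0 := by linear_combination -h'
    exact one_ne_zero this
  have h20 : (Sum.inl (2 : ZMod p) : Idx p κ) ≠ Sum.inl 0 := by
    intro h
    exact two_ne_zero_of hp (Sum.inl_injective h)
  have h3 : swap (Sum.inl (1 : ZMod p) : Idx p κ) (Sum.inl 2) * swap (Sum.inl 1) (Sum.inl 0) ∈ H := by
    have h4 := H.mul_mem hT (hnorm (swap (Sum.inl (0 : ZMod p)) (Sum.inl 1)) _ (H.inv_mem hT))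
    have e : T (κ := κ) (1 : ZMod p) * (swap (Sum.inl (0 : ZMod p)) (Sum.inl 1) * (T (κ := κ) (1 : ZMod p))⁻¹ *
        (swap (Sum.inl (0 : ZMod p)) (Sum.inl 1))⁻¹)
        = swap (Sum.inl (1 : ZMod p) : Idx p κ) (Sum.inl 2) * swap (Sum.inl 1) (Sum.inl 0) := by
      have e1 : swap (Sum.inl (1 : ZMod p) : Idx p κ) (Sum.inl 2)
          = T (κ := κ) (1 : ZMod p) * swap (Sum.inl (0 : ZMod p)) (Sum.inl 1) * (T (κ := κ) (1 : ZMod p))⁻¹ := by
        rw [← Equiv.swap_apply_apply, T_apply_inl, T_apply_inl, zero_add, one_add_one_eq_two]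
      rw [e1, swap_inv, swap_comm (Sum.inl (1 : ZMod p) : Idx p κ) (Sum.inl 0)]
      simp only [mul_assoc]
    rwa [e] at h4
  have h3c : (swap (Sum.inl (1 : ZMod p) : Idx p κ) (Sum.inl 2) * swap (Sum.inl 1) (Sum.inl 0)).IsThreeCycle :=
    isThreeCycle_swap_mul_swap_same h12 h01 h20
  have hall : ∀ τ : Perm (Idx p κ), τ.IsThreeCycle → τ ∈ H := by
    intro τ hτ
    have hc : IsConj (swap (Sum.inl (1 : ZMod p) : Idx p κ) (Sum.inl 2) * swap (Sum.inl 1) (Sum.inl 0)) τ := by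
      rw [isConj_iff_cycleType_eq, h3c.cycleType, hτ.cycleType]
    obtain ⟨c, hc⟩ := isConj_iff.1 hc
    rw [← hc]
    exact hnorm c _ h3
  have hle : alternatingGroup (Idx p κ) ≤ H := by
    rw [← closure_three_cycles_eq_alternating, Subgroup.closure_le]
    exact hall
  exact hle (mem_alternatingGroup.2 hσ)

end Cfsg.Agent.Lib.Helper91.AltP4a
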