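import Cfsg.Agent.Lib.Helper85.AltModel
import Cfsg.Agent.Lib.Helper91.AltB
import Cfsg.Agent.Lib.Helper91.AltP4a

set_option autoImplicit false
set_option linter.unusedSectionVars false
set_option linter.unusedVariables false

/-! S5165 farm (helper85), piece [P4b]: diagonal elements of determinant one. -/

namespace Cfsg.Agent.Lib.Helper91.AltP4b

open Equiv Equiv.Perm Cfsg.Agent.Lib.Helper85.AltM Cfsg.Agent.Lib.Helper91.AltB Cfsg.Agent.Lib.Helper91.AltP4a

variable {p : ℕ} [Fact p.Prime] {κ ε : Type} [Fintype κ] [DecidableEq κ] [Fintype ε] [DecidableEq ε]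

/-- `ml` as a homomorphism. -/
def mlHom : (Idx p κ → (ZMod p)ˣ) →* Perm (X p κ) where
  toFun := ml
  map_one' := ml_one
  map_mul' := ml_mul

theorem exists_third {α : Type*} [Fintype α] [DecidableEq α] (h3 : 3 ≤ Fintype.card α) (i j : α) :
    ∃ k, k ≠ i ∧ k ≠ j := by
  by_contra hcon
  push Not at hcon
  have h1 : (Finset.univ : Finset α) ⊆ {i, j} := by
    intro t _
    by_cases ht : t = i
    · simp [ht]
    · simp [hcon t ht]
  have h2 := Finset.card_le_card h1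
  rw [Finset.card_univ] at h2
  have h4 := Finset.card_le_two (a := i) (b := j)
  omega

theorem gen_odd_ml (h3 : 3 ≤ Fintype.card (Idx p κ))
    (hbl : ∀ σ : Perm (Idx p κ), sign σ = 1 → J ε (bl σ) ∈ Subgroup.closure {y : Perm (M p κ ε) |
      y ∈ Subgroup.normalizer (Ahat p κ ε : Set (Perm (M p κ ε))) ∧ ∃ k : ℕ, y ^ p ^ k = 1})
    (l : Idx p κ → (ZMod p)ˣ) (hl : ∏ i, l i = 1) :
    J ε (ml l) ∈ Subgroup.closure {y : Perm (M p κ ε) |
      y ∈ Subgroup.normalizer (Ahat p κ ε : Set (Perm (M p κ ε))) ∧ ∃ k : ℕ, y ^ p ^ k = 1} := by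
  set C := Subgroup.closure {y : Perm (M p κ ε) |
      y ∈ Subgroup.normalizer (Ahat p κ ε : Set (Perm (M p κ ε))) ∧ ∃ k : ℕ, y ^ p ^ k = 1} with hC
  set L : Subgroup (Idx p κ → (ZMod p)ˣ) := C.comap ((J ε).comp mlHom) with hL
  have hmem : ∀ m : Idx p κ → (ZMod p)ˣ, m ∈ L ↔ J ε (ml m) ∈ C := fun m => Iff.rfl
  have hpair : ∀ (i j : Idx p κ) (a : (ZMod p)ˣ), i ≠ j → Pi.mulSingle i a * Pi.mulSingle j a⁻¹ ∈ L := by
    intro i j a hij
    obtain ⟨k, hki, hkj⟩ := exists_third h3 i j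
    set σ : Perm (Idx p κ) := swap i j * swap j k with hσ
    have hσi : σ i = j := by
      rw [hσ, Perm.mul_apply, swap_apply_of_ne_of_ne hij hki.symm, swap_apply_left]
    have hsign : sign σ = 1 := by
      rw [hσ, Perm.sign_mul, sign_swap hij, sign_swap hkj.symm]
      rfl
    set m : Idx p κ → (ZMod p)ˣ := Pi.mulSingle i a with hm
    have h1 : J ε (ml m) * J ε (bl σ) * (J ε (ml m))⁻¹ * (J ε (bl σ))⁻¹ ∈ C :=
      C.mul_mem (conj_mem_closure _ p (J_ml_mem_normalizer m) (hbl σ hsign)) (C.inv_mem (hbl σ hsign))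
    have e1 : J ε (ml m) * J ε (bl σ) * (J ε (ml m))⁻¹ * (J ε (bl σ))⁻¹
        = J ε (ml (m * fun t => m⁻¹ (σ⁻¹ t))) := by
      rw [ml_mul, ← bl_conj_ml, ml_inv]
      simp only [map_mul, map_inv, mul_assoc]
    have e2 : (fun t => m⁻¹ (σ⁻¹ t)) = Pi.mulSingle j a⁻¹ := by
      funext t
      by_cases ht : t = j
      · subst ht
        have : σ⁻¹ (σ i) = i := by simp
        rw [← hσi, this, hσi, Pi.mulSingle_eq_same, Pi.inv_apply, hm, Pi.mulSingle_eq_same]
      · have h5 : σ⁻¹ t ≠ i := by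
          intro h6
          apply ht
          rw [← hσi, ← h6]
          simp
        rw [Pi.mulSingle_eq_of_ne ht, Pi.inv_apply, hm, Pi.mulSingle_eq_of_ne h5, inv_one]
    rw [e1, e2] at h1
    exact h1
  obtain ⟨i0⟩ : Nonempty (Idx p κ) := ⟨Sum.inl 0⟩
  have e : l = ∏ i, (Pi.mulSingle i (l i) * Pi.mulSingle i0 (l i)⁻¹) := by
    rw [Finset.prod_mul_distrib, Finset.univ_prod_mulSingle]
    have h1 : ∏ i, (Pi.mulSingle i0 (l i)⁻¹ : Idx p κ → (ZMod p)ˣ) = 1 := by
      funext t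
      rw [Finset.prod_apply]
      by_cases ht : t = i0
      · subst ht
        simp only [Pi.mulSingle_eq_same]
        rw [Finset.prod_inv_distrib, hl, inv_one, Pi.one_apply]
      · simp only [Pi.mulSingle_eq_of_ne ht]
        rw [Finset.prod_const_one, Pi.one_apply]
    rw [h1, mul_one]
  rw [← hmem, e]
  refine Subgroup.prod_mem _ ?_
  intro i _
  by_cases hi : i = i0
  · subst hi
    rw [← Pi.mulSingle_mul, mul_inv_cancel, Pi.mulSingle_one]
    exact L.one_mem
  · exact hpair i i0 _ hi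

end Cfsg.Agent.Lib.Helper91.AltP4b
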