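import Cfsg.Agent.Lib.Helper85.AltModel
import Cfsg.Agent.Lib.Helper91.AltB
import Cfsg.Agent.Lib.Helper91.AltP4a

set_option autoImplicit false
set_option linter.unusedSectionVars false
set_option linter.unusedVariables false

/-! S5165 farm (helper85), piece [P4c]: generation for `p = 2`. -/

namespace Cfsg.Agent.Lib.Helper91.AltP4c

open Equiv Equiv.Perm Cfsg.Agent.Lib.Helper85.AltM Cfsg.Agent.Lib.Helper91.AltB Cfsg.Agent.Lib.Helper91.AltP4a

variable {p : ℕ} [Fact p.Prime] {κ ε : Type} [Fintype κ] [DecidableEq κ] [Fintype ε] [DecidableEq ε]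

theorem gen_two (hp : p = 2) (d : Idx p κ → ZMod p) (σ : Perm (Idx p κ)) (hd : ∑ i, d i = 0) :
    J ε (tr d * bl σ) ∈ Subgroup.closure {y : Perm (M p κ ε) | y ∈ alternatingGroup (M p κ ε) ∧
      y ∈ Subgroup.normalizer (AA p κ ε : Set (Perm (M p κ ε))) ∧ ∃ k : ℕ, y ^ p ^ k = 1} := by
  set C := Subgroup.closure {y : Perm (M p κ ε) | y ∈ alternatingGroup (M p κ ε) ∧
      y ∈ Subgroup.normalizer (AA p κ ε : Set (Perm (M p κ ε))) ∧ ∃ k : ℕ, y ^ p ^ k = 1} with hC
  have h1 : J ε (tr d) ∈ C := by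
    apply Subgroup.subset_closure
    refine ⟨?_, normalizer_Ahat_le_normalizer_AA (J_tr_mem_normalizer d), 1, ?_⟩
    · rw [mem_alternatingGroup, sign_J, sign_tr_eq, hd, sign_addRight_zero]
    · rw [pow_one, ← map_pow, tr_pow_p, map_one]
  have h2 : ∀ τ : Perm (Idx p κ), J ε (bl τ) ∈ C := by
    intro τ
    induction τ using Equiv.Perm.swap_induction_on with
    | one => rw [bl_one, map_one]; exact C.one_mem
    | swap_mul f x y hxy ih =>
      rw [bl_mul, map_mul]
      refine C.mul_mem ?_ ih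
      apply Subgroup.subset_closure
      refine ⟨?_, normalizer_Ahat_le_normalizer_AA (J_bl_mem_normalizer _), 1, ?_⟩
      · rw [mem_alternatingGroup, sign_J, sign_bl, sign_swap hxy, hp]
        rfl
      · rw [pow_one, ← map_pow]
        have h3 : bl (swap x y) ^ p = blHom (swap x y ^ p) := by
          rw [map_pow]; rfl
        have h4 : swap x y ^ p = 1 := by
          have h5 : ∀ n : ℕ, n = 2 → swap x y ^ n = 1 := by
            intro n hn
            rw [hn, pow_two, swap_mul_self]
          exact h5 p hp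
        rw [h3, h4, map_one, map_one]
  rw [map_mul]
  exact C.mul_mem h1 (h2 σ)

end Cfsg.Agent.Lib.Helper91.AltP4c
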