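import Mathlib
import Cfsg.Agent.Lib.Lead.CosetSum

set_option autoImplicit false

namespace Cfsg.Agent.Lib.Helper91.FPF4

open Finset Cfsg.Agent.Lib.Lead

/-- **Coset-sum lemma, general exponent.** Let `X` be a unit of a ring `R` normalizing a finite group `T` of units,
and suppose that `1 + Xy + ... + (Xy)^(n-1) = 0` for all `y ∈ T` and that `y ↦ (Xy)^k` is injective on `T`
for `0 < k < n`. If `|T|` is invertible in `R`, then `T = 1`. -/
theorem eq_bot_of_geom_sum_coset_eq_zero' {R : Type*} [Ring R] (X : Rˣ) (T : Subgroup Rˣ) [Finite T]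
    (hXT : ∀ y ∈ T, X⁻¹ * y * X ∈ T) (n : ℕ) (hn : 0 < n)
    (hinj : ∀ k, 0 < k → k < n → ∀ y ∈ T, ∀ y' ∈ T, (X * y) ^ k = (X * y') ^ k → y = y')
    (hsum : ∀ y ∈ T, ∑ k ∈ range n, (((X * y : Rˣ) : R)) ^ k = 0)
    (hreg : IsUnit ((Nat.card T : ℕ) : R)) : T = ⊥ := by
  classical
  have : Fintype T := Fintype.ofFinite T
  -- the maps N k
  have hN : ∀ k : ℕ, ∀ y ∈ T, (X⁻¹) ^ k * (X * y) ^ k ∈ T := by
    intro k
    induction k with
    | zero => intro y _; simp
    | succ k ih =>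
      intro y hy
      have : (X⁻¹) ^ (k + 1) * (X * y) ^ (k + 1) = (X⁻¹ * ((X⁻¹) ^ k * (X * y) ^ k) * X) * y := by
        rw [pow_succ' (X⁻¹) k, pow_succ (X * y) k]; group
      rw [this]
      exact T.mul_mem (hXT _ (ih y hy)) hy
  let f : ℕ → T → T := fun k y => ⟨(X⁻¹) ^ k * (X * y) ^ k, hN k y y.2⟩
  have hfinj : ∀ k, 0 < k → k < n → Function.Injective (f k) := by
    intro k hk0 hkn y y' hyy
    have h1 : (X⁻¹) ^ k * (X * y) ^ k = (X⁻¹) ^ k * (X * y') ^ k := congrArg Subtype.val hyy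
    have h2 : (X * (y : Rˣ)) ^ k = (X * y') ^ k := mul_left_cancel h1
    exact Subtype.ext (hinj k hk0 hkn y y.2 y' y'.2 h2)
  set S : R := ∑ y : T, ((y : Rˣ) : R) with hS
  have hfsum : ∀ k, 0 < k → k < n → ∑ y : T, (((f k y : T) : Rˣ) : R) = S := by
    intro k hk0 hkn
    have hb : Function.Bijective (f k) := Finite.injective_iff_bijective.mp (hfinj k hk0 hkn)
    exact hb.sum_comp (fun y : T => ((y : Rˣ) : R))
  have hterm : ∀ (k : ℕ) (y : T), (((X * y : Rˣ) : R)) ^ k = ((X : R)) ^ k * (((f k y : T) : Rˣ) : R) := by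
    intro k y
    have : (X * (y : Rˣ)) ^ k = X ^ k * ((X⁻¹) ^ k * (X * y) ^ k) := by
      rw [← mul_assoc, inv_pow, mul_inv_cancel, one_mul]
    have h2 : (((X * (y : Rˣ)) ^ k : Rˣ) : R) = ((X ^ k * ((X⁻¹) ^ k * (X * y) ^ k) : Rˣ) : R) := by rw [← this]
    rw [Units.val_pow_eq_pow_val] at h2
    rw [h2, Units.val_mul, Units.val_pow_eq_pow_val]
  have htot : ∑ y : T, ∑ k ∈ range n, (((X * y : Rˣ) : R)) ^ k = 0 :=
    Finset.sum_eq_zero (fun y _ => hsum y y.2)
  rw [Finset.sum_comm] at htot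
  obtain ⟨m, rfl⟩ : ∃ m, n = m + 1 := ⟨n - 1, (Nat.succ_pred_eq_of_pos hn).symm⟩
  rw [Finset.sum_range_succ'] at htot
  have h0 : ∑ y : T, (((X * y : Rˣ) : R)) ^ 0 = ((Nat.card T : ℕ) : R) := by
    simp [Nat.card_eq_fintype_card]
  have h1 : ∑ k ∈ range m, ∑ y : T, (((X * y : Rˣ) : R)) ^ (k + 1) = (∑ k ∈ range m, (X : R) ^ (k + 1)) * S := by
    rw [Finset.sum_mul]
    refine Finset.sum_congr rfl (fun k hk => ?_)
    rw [← hfsum (k + 1) (Nat.succ_pos k) (Nat.succ_lt_succ (Finset.mem_range.mp hk)), Finset.mul_sum]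
    exact Finset.sum_congr rfl (fun y _ => hterm (k + 1) y)
  have h2 : ∑ k ∈ range m, (X : R) ^ (k + 1) = -1 := by
    have := hsum 1 T.one_mem
    rw [Finset.sum_range_succ'] at this
    simp only [mul_one, pow_zero] at this
    exact eq_neg_of_add_eq_zero_left this
  rw [h0, h1, h2] at htot
  have hSc : S = ((Nat.card T : ℕ) : R) := by
    have : -S + ((Nat.card T : ℕ) : R) = 0 := by simpa using htot
    exact (neg_add_eq_zero.mp this)
  rw [eq_bot_iff]
  intro w hw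
  have hwS : (w : R) * S = S := by
    rw [hS, Finset.mul_sum]
    have := Equiv.sum_comp (Equiv.mulLeft (⟨w, hw⟩ : T)) (fun y : T => ((y : Rˣ) : R))
    simpa using this
  rw [hSc] at hwS
  have : (w : R) = 1 := by
    obtain ⟨u, hu⟩ := hreg
    rw [← hu] at hwS
    have := congrArg (fun z => z * ((u⁻¹ : Rˣ) : R)) hwS
    simpa [mul_assoc] using this
  rw [Subgroup.mem_bot]
  ext
  simpa using this

/-- automorphism form of the general coset-sum lemma -/
theorem mulAut_eq_bot_of_norm_coset_eq_one' {A : Type*} [Group A] (hA : ∀ a b : A, a * b = b * a) {p : ℕ}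
    (hexp : ∀ a : A, a ^ p = 1) (X : MulAut A) (T : Subgroup (MulAut A)) [Finite T]
    (hcop : (Nat.card T).Coprime p) (hXT : ∀ y ∈ T, X⁻¹ * y * X ∈ T) {n : ℕ} (hn : 0 < n)
    (hinj : ∀ k, 0 < k → k < n → ∀ y ∈ T, ∀ y' ∈ T, (X * y) ^ k = (X * y') ^ k → y = y')
    (hnorm : ∀ y ∈ T, ∀ a : A, ((List.range n).map (fun k => ((X * y) ^ k) a)).prod = 1) : T = ⊥ := by
  let _ : CommGroup A := { ‹Group A› with mul_comm := hA }
  let ρ : MulAut A →* (AddMonoid.End (Additive A))ˣ := (mulAutToEnd A).toHomUnits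
  have hρ : Function.Injective ρ := by
    intro a b hab
    apply mulAutToEnd_injective A
    have := congrArg (fun u : (AddMonoid.End (Additive A))ˣ => (u : AddMonoid.End (Additive A))) hab
    simpa [ρ] using this
  have hpR : ((p : ℕ) : AddMonoid.End (Additive A)) = 0 := by
    ext a
    have : ((p : ℕ) : AddMonoid.End (Additive A)) a = p • a := by
      simp
    rw [this]
    show Additive.ofMul (a.toMul ^ p) = 0
    rw [hexp]; rfl
  have : Finite (T.map ρ) := (Set.Finite.image ρ (Set.toFinite (T : Set (MulAut A)))).to_subtype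
  have key := eq_bot_of_geom_sum_coset_eq_zero' (ρ X) (T.map ρ) ?_ n hn ?_ ?_ ?_
  · rw [eq_bot_iff]
    intro y hy
    have h1 : ρ y ∈ T.map ρ := Subgroup.mem_map_of_mem ρ hy
    rw [key, Subgroup.mem_bot] at h1
    rw [Subgroup.mem_bot]
    exact hρ (by rw [h1, map_one])
  · rintro _ ⟨a, ha, rfl⟩
    rw [← map_inv, ← map_mul, ← map_mul]
    exact Subgroup.mem_map_of_mem ρ (hXT a ha)
  · rintro k hk0 hkn _ ⟨y, hy, rfl⟩ _ ⟨y', hy', rfl⟩ h
    rw [← map_mul, ← map_mul, ← map_pow, ← map_pow] at h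
    rw [hinj k hk0 hkn y hy y' hy' (hρ h)]
  · rintro _ ⟨y, hy, rfl⟩
    ext a
    have h1 : ((ρ X * ρ y : (AddMonoid.End (Additive A))ˣ) : AddMonoid.End (Additive A)) = mulAutToEnd A (X * y) := by
      rw [← map_mul]; rfl
    rw [h1, sum_mulAutToEnd_pow_apply, hnorm y hy]
    rfl
  · exact isUnit_natCast_of_coprime hpR (Nat.Coprime.coprime_dvd_left (Subgroup.card_map_dvd T ρ) hcop)

end Cfsg.Agent.Lib.Helper91.FPF4
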