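import Mathlib
import Cfsg.Agent.Lib.Helper1.CoprimeSylow
import Cfsg.Agent.Lib.Helper1.Tools
import Cfsg.Agent.Lib.Helper9.Schmidt
import Cfsg.Agent.S0544

/-!
The Sylow subgroups `syl A p` of a nilpotent subgroup `A` of a finite group, as subgroups of the
ambient group, with a small API.  Preparation for the Kegel-Wielandt theorem.
-/

set_option autoImplicit false

namespace Cfsg.Agent.Lib.Helper91.KW

open Subgroup
open scoped Pointwise

variable {G : Type*} [Group G]

/-- A Sylow `p`-subgroup of the subgroup `A` (the unique one if `A` is nilpotent), inside `G`. -/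
noncomputable def syl (A : Subgroup G) (p : ℕ) [Fact p.Prime] : Subgroup G :=
  ((default : Sylow p A) : Subgroup A).map A.subtype

section api

variable [Finite G] {A : Subgroup G} {p : ℕ} [Fact p.Prime]

theorem syl_le : syl A p ≤ A :=
  (Cfsg.Agent.Lib.Helper1.sylow_map_subtype_props (default : Sylow p A)).1

theorem syl_isPGroup : IsPGroup p (syl A p) :=
  (Cfsg.Agent.Lib.Helper1.sylow_map_subtype_props (default : Sylow p A)).2.1

theorem syl_not_dvd_relIndex : ¬ p ∣ (syl A p).relIndex A :=
  (Cfsg.Agent.Lib.Helper1.sylow_map_subtype_props (default : Sylow p A)).2.2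

theorem syl_eq (hA : Group.IsNilpotent A) {S : Subgroup G} (hS : S ≤ A) (hp : IsPGroup p S)
    (hi : ¬ p ∣ S.relIndex A) : S = syl A p := by
  obtain ⟨P', hP'⟩ := Cfsg.Agent.Lib.Helper1.exists_sylow_map_subtype_eq hS hp hi
  have : Subsingleton (Sylow p A) :=
    (Sylow.unique_of_normal (default : Sylow p A) inferInstance).instSubsingleton
  rw [← hP', Subsingleton.elim P' default]
  rfl

theorem le_syl (hA : Group.IsNilpotent A) {S : Subgroup G} (hS : S ≤ A) (hp : IsPGroup p S) :
    S ≤ syl A p := by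
  have h1 : IsPGroup p (S.subgroupOf A) := hp.comap_subtype
  obtain ⟨Q, hQ⟩ := h1.exists_le_sylow
  have : Subsingleton (Sylow p A) :=
    (Sylow.unique_of_normal (default : Sylow p A) inferInstance).instSubsingleton
  rw [Subsingleton.elim Q default] at hQ
  have h2 := Subgroup.map_mono (f := A.subtype) hQ
  rw [Subgroup.subgroupOf_map_subtype, inf_eq_left.2 hS] at h2
  exact h2

theorem le_normalizer_syl (hA : Group.IsNilpotent A) : A ≤ normalizer (syl A p : Set G) := by
  rw [← Subgroup.normal_subgroupOf_iff_le_normalizer syl_le]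
  have h1 : (syl A p).subgroupOf A = ((default : Sylow p A) : Subgroup A) :=
    Subgroup.comap_map_eq_self_of_injective A.subtype_injective _
  rw [h1]
  infer_instance

theorem syl_ne_bot (h : p ∣ Nat.card A) : syl A p ≠ ⊥ := by
  intro h0
  apply syl_not_dvd_relIndex (A := A) (p := p)
  rw [h0, Subgroup.relIndex_bot_left]
  exact h

theorem syl_eq_bot (h : ¬ p ∣ Nat.card A) : syl A p = ⊥ := by
  obtain ⟨k, hk⟩ := IsPGroup.iff_card.1 (syl_isPGroup (A := A) (p := p))
  have h1 : Nat.card (syl A p) ∣ Nat.card A := Subgroup.card_dvd_of_le syl_le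
  rcases Nat.eq_zero_or_pos k with h0 | h0
  · rw [h0, pow_zero] at hk
    exact Subgroup.card_eq_one.1 hk
  · exfalso
    apply h
    refine dvd_trans ?_ h1
    rw [hk]
    exact dvd_pow_self p h0.ne'

theorem syl_commute (hA : Group.IsNilpotent A) {q : ℕ} [Fact q.Prime] (hpq : p ≠ q) :
    ∀ a ∈ syl A p, ∀ b ∈ syl A q, a * b = b * a :=
  Cfsg.Agent.Lib.Helper9.commute_of_nilpotent_of_pgroups hpq hA syl_le syl_le syl_isPGroup
    syl_isPGroup

theorem le_of_forall_syl_le {N : Subgroup G}
    (h : ∀ (q : ℕ) [Fact q.Prime], syl A q ≤ N) : A ≤ N := by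
  rw [← Subgroup.relIndex_eq_one, Nat.eq_one_iff_not_exists_prime_dvd]
  intro q hq hd
  have : Fact q.Prime := ⟨hq⟩
  exact syl_not_dvd_relIndex (A := A) (p := q) (hd.trans (relIndex_dvd_of_le_left A (h q)))

theorem isNilpotent_conj (hA : Group.IsNilpotent A) (g : G) :
    Group.IsNilpotent (MulAut.conj g • A : Subgroup G) :=
  (Group.isNilpotent_congr (Subgroup.equivSMul (MulAut.conj g) A)).1 hA

theorem syl_conj (hA : Group.IsNilpotent A) (g : G) :
    syl (MulAut.conj g • A) p = MulAut.conj g • syl A p := by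
  symm
  apply syl_eq (isNilpotent_conj hA g)
  · exact Subgroup.pointwise_smul_le_pointwise_smul_iff.2 syl_le
  · exact (syl_isPGroup (A := A) (p := p)).map _
  · rw [Subgroup.relIndex_pointwise_smul]
    exact syl_not_dvd_relIndex

theorem syl_not_dvd_index (hHall : (Nat.card A).Coprime A.index) (h : p ∣ Nat.card A) :
    ¬ p ∣ (syl A p).index := by
  rw [← Subgroup.relIndex_mul_index (syl_le (A := A) (p := p))]
  intro hd
  rcases (Nat.Prime.dvd_mul Fact.out).1 hd with h1 | h1
  · exact syl_not_dvd_relIndex h1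
  · exact (Fact.out : p.Prime).one_lt.ne' (Nat.eq_one_of_dvd_coprimes hHall h h1)

theorem eq_syl_of_le (hHall : (Nat.card A).Coprime A.index) (h : p ∣ Nat.card A)
    {Q : Subgroup G} (hQ : IsPGroup p Q) (hle : syl A p ≤ Q) : Q = syl A p := by
  let P : Sylow p G := (syl_isPGroup (A := A) (p := p)).toSylow (syl_not_dvd_index hHall h)
  exact P.is_maximal' hQ hle

theorem mem_syl (hA : Group.IsNilpotent A) {x : G} (hx : x ∈ A) (ho : orderOf x = p) :
    x ∈ syl A p := by
  have h1 : IsPGroup p (zpowers x) := by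
    apply IsPGroup.of_card (n := 1)
    rw [Nat.card_zpowers, ho, pow_one]
  exact le_syl hA (by rwa [Subgroup.zpowers_le]) h1 (Subgroup.mem_zpowers x)

end api

/-- A subgroup of `N_G(A)` of order prime to `|G : A|` lies in `A`. -/
theorem le_of_le_normalizer_of_coprime {A E : Subgroup G} (h : E ≤ normalizer (A : Set G))
    (hc : (Nat.card E).Coprime A.index) : E ≤ A := by
  rw [← Subgroup.relIndex_eq_one]
  exact Nat.eq_one_of_dvd_coprimes hc (Subgroup.relIndex_dvd_card _ _)
    (Cfsg.Agent.S0544.relIndex_dvd_index_of_le_normalizer h)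

end Cfsg.Agent.Lib.Helper91.KW
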