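import Mathlib
import Cfsg.Agent.Lib.Helper91.KW1
import Cfsg.Agent.Lib.Helper91.Fitting
import Cfsg.Agent.Lib.Helper62.Conj
import Cfsg.Agent.Lib.Helper1.Fitting
import Cfsg.Agent.Lib.Helper1.Hall
import Cfsg.Agent.S0044

/-!
Abstract lemmas on finite solvable groups used in the proof of the Kegel-Wielandt theorem.
-/

set_option autoImplicit false

namespace Cfsg.Agent.Lib.Helper91.KW

open Subgroup Cfsg
open scoped Pointwise

variable {G : Type*} [Group G] [Finite G]

theorem normal_of_forall_conj_smul_le {N : Subgroup G} (h : ∀ g : G, MulAut.conj g • N ≤ N) :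
    N.Normal := by
  constructor
  intro n hn g
  apply h g
  rw [Cfsg.Agent.Lib.Helper1.mem_conj_smul_iff]
  have e : g⁻¹ * (g * n * g⁻¹) * g = n := by group
  rw [e]
  exact hn

theorem syl_normal_of_normal {F : Subgroup G} [hFn : F.Normal] (hF : Group.IsNilpotent F)
    (p : ℕ) [Fact p.Prime] : (syl F p).Normal := by
  apply normal_of_forall_conj_smul_le
  intro g
  rw [← syl_conj hF g, Subgroup.Normal.conj_smul_eq_self g F]

/-- **Lemma F.** -/
theorem pCore_ne_bot_of_centralizes [Group.IsSolvable G] {s : ℕ} [Fact s.Prime] {S : Subgroup G}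
    (hS : IsPGroup s S) (hne : S ≠ ⊥)
    (hc : ∀ r : ℕ, r.Prime → r ≠ s → S ≤ centralizer (pCore r G : Set G)) :
    pCore s G ≠ ⊥ := by
  intro h0
  have h1 : S ≤ centralizer (fittingSubgroup G : Set G) := by
    rw [Subgroup.le_centralizer_iff, Cfsg.Agent.Lib.Helper1.fittingSubgroup_eq_iSup_pCore]
    refine iSup_le fun r => ?_
    by_cases hr : (r : ℕ) = s
    · rw [hr, h0]
      exact bot_le
    · rw [← Subgroup.le_centralizer_iff]
      exact hc r r.prop hr
  have h2 : S ≤ fittingSubgroup G := h1.trans Cfsg.Agent.S0044.result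
  have hFnil : Group.IsNilpotent (fittingSubgroup G) :=
    Cfsg.Agent.Lib.Helper1.fittingSubgroup_isNilpotent
  have hFn : (fittingSubgroup G).Normal := Cfsg.Agent.Lib.Helper1.fittingSubgroup_normal
  have h3 : S ≤ syl (fittingSubgroup G) s := le_syl hFnil h2 hS
  have h4 : syl (fittingSubgroup G) s ≤ pCore s G :=
    Cfsg.Agent.Lib.Helper1.le_pCore (syl_normal_of_normal hFnil s) syl_isPGroup
  apply hne
  rw [eq_bot_iff, ← h0]
  exact h3.trans h4

/-- A `t`-subgroup `T` of index prime to `t` normalizes some Sylow `q`-subgroup of a normal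
subgroup `X`, provided `T ⊓ X` is central in `X`. -/
theorem exists_invariant_sylow_of_central {t q : ℕ} [Fact t.Prime] [Fact q.Prime]
    (X : Subgroup G) [X.Normal] (T : Subgroup G) (hT : IsPGroup t T) (hTi : ¬ t ∣ T.index)
    (hc : ∀ x ∈ T ⊓ X, ∀ y ∈ X, x * y = y * x) :
    ∃ Q : Subgroup G, Q ≤ X ∧ IsPGroup q Q ∧ ¬ q ∣ Q.relIndex X ∧
      T ≤ normalizer (Q : Set G) := by
  letI : MulAction T (Sylow q X) :=
    MulAction.compHom _ ((MulAut.conjNormal (H := X)).comp T.subtype)
  have hcard : ¬ t ∣ Nat.card (Sylow q X) := by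
    intro hd
    apply hTi
    rw [Sylow.card_eq_index_normalizer (default : Sylow q X)] at hd
    refine hd.trans ?_
    have h1 : T.subgroupOf X ≤ normalizer (((default : Sylow q X) : Subgroup X) : Set X) := by
      refine le_trans ?_ (Subgroup.center_le_normalizer _)
      intro x hx
      rw [Subgroup.mem_center_iff]
      intro y
      apply Subtype.ext
      exact (hc x (Subgroup.mem_inf.2 ⟨Subgroup.mem_subgroupOf.1 hx, x.2⟩) y y.2).symm
    exact (Subgroup.index_dvd_of_le h1).trans (relIndex_dvd_index_of_normal_right T X)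
  obtain ⟨Q, hQ⟩ := hT.nonempty_fixed_point_of_prime_not_dvd_card (Sylow q X) hcard
  obtain ⟨h1, h2, h3⟩ := Cfsg.Agent.Lib.Helper1.sylow_map_subtype_props Q
  refine ⟨_, h1, h2, h3, ?_⟩
  intro g hg
  rw [← Cfsg.Agent.Lib.Helper62.conjNormal_smul_eq_iff]
  exact hQ ⟨g, hg⟩

/-- **Claim U.**  A nilpotent Hall subgroup `A` (with at least two primes) of a finite solvable
group is normal, provided no nontrivial `q`-subgroup (`q ∤ |A|`) is normalized by a Sylow subgroup
of `A`. -/
theorem normal_of_nilpotent_hall [Group.IsSolvable G] {A : Subgroup G}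
    (hA : Group.IsNilpotent A) (hHall : (Nat.card A).Coprime A.index)
    (h2 : ∀ p : ℕ, p.Prime → ∃ s : ℕ, s.Prime ∧ s ≠ p ∧ s ∣ Nat.card A)
    (hinv : ∀ (r q : ℕ) [Fact r.Prime] [Fact q.Prime], r ∣ Nat.card A → ¬ q ∣ Nat.card A →
      ∀ Y : Subgroup G, IsPGroup q Y → syl A r ≤ normalizer (Y : Set G) → Y = ⊥) :
    A.Normal := by
  have hcore0 : ∀ q : ℕ, q.Prime → ¬ q ∣ Nat.card A → pCore q G = ⊥ := by
    intro q hq hqA
    obtain ⟨r, hr, -, hrA⟩ := h2 2 Nat.prime_two
    have : Fact q.Prime := ⟨hq⟩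
    have : Fact r.Prime := ⟨hr⟩
    have hn : (pCore q G).Normal := Cfsg.Agent.Lib.Helper1.pCore_normal q
    exact hinv r q hrA hqA _ (Cfsg.Agent.Lib.Helper1.pCore_isPGroup q)
      Subgroup.le_normalizer_of_normal
  have hcore1 : ∀ (t : ℕ) [Fact t.Prime], t ∣ Nat.card A → pCore t G ≤ syl A t := by
    intro t _ htA
    exact Cfsg.Agent.Lib.Helper1.pCore_le_sylow
      ((syl_isPGroup (A := A) (p := t)).toSylow (syl_not_dvd_index hHall htA))
  have hcardG : Nat.card G = Nat.card A * A.index := (Subgroup.card_mul_index A).symm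
  have key : ∀ (t s : ℕ) [Fact t.Prime] [Fact s.Prime], t ∣ Nat.card A → s ≠ t →
      (syl A s).Normal := by
    intro t s _ _ htA hst
    have hn : (pCore t G).Normal := Cfsg.Agent.Lib.Helper1.pCore_normal t
    set X : Subgroup G := centralizer (pCore t G : Set G) with hX
    have hXn : X.Normal := inferInstance
    have c1 : ∀ x ∈ syl A t ⊓ X, ∀ y ∈ X, x * y = y * x := by
      intro x hx y hy
      obtain ⟨hxT, hxX⟩ := Subgroup.mem_inf.1 hx
      have hF : fittingSubgroup G ≤ centralizer ({x} : Set G) := by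
        rw [Cfsg.Agent.Lib.Helper1.fittingSubgroup_eq_iSup_pCore]
        refine iSup_le fun r => ?_
        intro z hz
        rw [Subgroup.mem_centralizer_singleton_iff]
        have : Fact (r : ℕ).Prime := ⟨r.prop⟩
        by_cases hr : (r : ℕ) = t
        · rw [hr] at hz
          exact (Subgroup.mem_centralizer_iff.1 hxX z hz)
        · by_cases hrA : (r : ℕ) ∣ Nat.card A
          · exact syl_commute hA hr z (hcore1 r hrA hz) x hxT
          · rw [hcore0 r r.prop hrA, Subgroup.mem_bot] at hz
            rw [hz, one_mul, mul_one]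
      have hxc : x ∈ centralizer (fittingSubgroup G : Set G) := by
        rw [Subgroup.mem_centralizer_iff]
        intro z hz
        exact Subgroup.mem_centralizer_singleton_iff.1 (hF hz)
      have hxF : x ∈ fittingSubgroup G := Cfsg.Agent.S0044.result hxc
      have hFnil : Group.IsNilpotent (fittingSubgroup G) :=
        Cfsg.Agent.Lib.Helper1.fittingSubgroup_isNilpotent
      have hFn : (fittingSubgroup G).Normal := Cfsg.Agent.Lib.Helper1.fittingSubgroup_normal
      have h3 : zpowers x ≤ syl (fittingSubgroup G) t :=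
        le_syl hFnil (by rwa [Subgroup.zpowers_le])
          ((syl_isPGroup (A := A) (p := t)).to_le (by rwa [Subgroup.zpowers_le]))
      have h4 : syl (fittingSubgroup G) t ≤ pCore t G :=
        Cfsg.Agent.Lib.Helper1.le_pCore (syl_normal_of_normal hFnil t) syl_isPGroup
      exact Subgroup.mem_centralizer_iff.1 hy x (h4 (h3 (Subgroup.mem_zpowers x)))
    have c2 : ∀ q : ℕ, q.Prime → ¬ q ∣ Nat.card A → ¬ q ∣ Nat.card X := by
      intro q hq hqA hqX
      have : Fact q.Prime := ⟨hq⟩
      obtain ⟨Q, -, hQ2, hQ3, hQ4⟩ := exists_invariant_sylow_of_central (q := q) X (syl A t)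
        syl_isPGroup (syl_not_dvd_index hHall htA) c1
      have := hinv t q htA hqA Q hQ2 hQ4
      rw [this, Subgroup.relIndex_bot_left] at hQ3
      exact hQ3 hqX
    have c3 : X ≤ A := by
      apply Cfsg.Agent.Lib.Helper1.normal_le_of_card_dvd hcardG hHall _ rfl
      have h1 : Nat.card X ∣ Nat.card A * A.index := hcardG ▸ Subgroup.card_subgroup_dvd_card X
      refine Nat.Coprime.dvd_of_dvd_mul_right ?_ h1
      apply Nat.coprime_of_dvd
      intro k hk hkX hki
      apply c2 k hk _ hkX
      intro hkA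
      exact hk.one_lt.ne' (Nat.eq_one_of_dvd_coprimes hHall hkA hki)
    have c4 : syl A s ≤ X := by
      intro a ha
      rw [hX, Subgroup.mem_centralizer_iff]
      intro y hy
      exact syl_commute hA hst.symm y (hcore1 t htA hy) a ha
    apply normal_of_forall_conj_smul_le
    intro g
    apply le_syl hA
    · refine le_trans ?_ c3
      rw [← Subgroup.Normal.conj_smul_eq_self g X]
      exact Subgroup.pointwise_smul_le_pointwise_smul_iff.2 c4
    · exact (syl_isPGroup (A := A) (p := s)).map _
  apply normal_of_forall_conj_smul_le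
  intro g
  apply le_of_forall_syl_le
  intro q _
  rw [syl_conj hA g]
  by_cases hqA : q ∣ Nat.card A
  · obtain ⟨t, ht, htq, htA⟩ := h2 q Fact.out
    have : Fact t.Prime := ⟨ht⟩
    have hn := key t q htA htq.symm
    rw [Subgroup.Normal.conj_smul_eq_self g (syl A q)]
    exact syl_le
  · rw [syl_eq_bot hqA]
    simp

end Cfsg.Agent.Lib.Helper91.KW
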