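import Mathlib
import Cfsg.Agent.Lib.Helper91.KW1
import Cfsg.Agent.Lib.Helper91.Subnormal
import Cfsg.Agent.S0558
import Cfsg.Agent.S0561

/-!
Relative (subgroup) versions of S0561 (permutability of normal Hall subgroups of the factors of a
solvable factorized group) and S0558 (Wielandt's normal complement theorem).
-/

set_option autoImplicit false

namespace Cfsg.Agent.Lib.Helper91.KW

open Subgroup
open scoped Pointwise

variable {G : Type*} [Group G] [Finite G]

theorem mem_normalizer_subgroupOf_iff {L W : Subgroup G} (n : L) :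
    n ∈ normalizer ((W.subgroupOf L : Subgroup L) : Set L) ↔
      ∀ y ∈ L, (y ∈ W ↔ (n : G) * y * (n : G)⁻¹ ∈ W) := by
  rw [Subgroup.mem_normalizer_iff]
  constructor
  · intro h y hy
    have := h ⟨y, hy⟩
    rw [Subgroup.mem_subgroupOf, Subgroup.mem_subgroupOf] at this
    exact this
  · intro h y
    rw [Subgroup.mem_subgroupOf, Subgroup.mem_subgroupOf]
    exact h y y.2

theorem perm_of_solvable_factorized (L H K X Y : Subgroup G) (hL : Group.IsSolvable L)
    (hH : H ≤ L) (hK : K ≤ L) (hmul : ∀ l ∈ L, ∃ h ∈ H, ∃ k ∈ K, l = h * k)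
    (hXH : X ≤ H) (hXn : H ≤ normalizer (X : Set G)) (hYK : Y ≤ K)
    (hYn : K ≤ normalizer (Y : Set G)) (hXh : (Nat.card X).Coprime (X.relIndex L))
    (hYh : (Nat.card Y).Coprime (Y.relIndex L)) :
    ∃ S : Subgroup G, S ≤ L ∧ (S : Set G) = (X : Set G) * (Y : Set G) := by
  have hnorm : ∀ {U V : Subgroup G}, U ≤ V → V ≤ normalizer (U : Set G) →
      ((U.subgroupOf L).subgroupOf (V.subgroupOf L)).Normal := by
    intro U V hUV hn
    have hle : U.subgroupOf L ≤ V.subgroupOf L := Subgroup.comap_mono hUV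
    rw [Subgroup.normal_subgroupOf_iff_le_normalizer hle]
    intro v hv
    rw [mem_normalizer_subgroupOf_iff]
    intro y _
    exact Subgroup.mem_normalizer_iff.1 (hn (Subgroup.mem_subgroupOf.1 hv)) y
  obtain ⟨S, hS⟩ := Cfsg.Agent.S0561.result (G := L) (H.subgroupOf L) (K.subgroupOf L)
    (X.subgroupOf L) (Y.subgroupOf L)
    (by
      intro g
      obtain ⟨h, hh, k, hk, e⟩ := hmul g g.2
      exact ⟨⟨h, hH hh⟩, Subgroup.mem_subgroupOf.2 hh, ⟨k, hK hk⟩, Subgroup.mem_subgroupOf.2 hk,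
        Subtype.ext e⟩)
    (Subgroup.comap_mono hXH) (hnorm hXH hXn) (Subgroup.comap_mono hYK) (hnorm hYK hYn)
    (by rw [Cfsg.Agent.Lib.Helper1.card_subgroupOf (hXH.trans hH)]; exact hXh)
    (by rw [Cfsg.Agent.Lib.Helper1.card_subgroupOf (hYK.trans hK)]; exact hYh) 1 1
  rw [map_one, one_smul, one_smul] at hS
  refine ⟨S.map L.subtype, Subgroup.map_subtype_le _, ?_⟩
  ext g
  constructor
  · rintro ⟨s, hs, rfl⟩
    have : s ∈ (S : Set L) := hs
    rw [hS, Set.mem_mul] at this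
    obtain ⟨x, hx, y, hy, rfl⟩ := this
    exact Set.mem_mul.2 ⟨x, Subgroup.mem_subgroupOf.1 hx, y, Subgroup.mem_subgroupOf.1 hy, rfl⟩
  · intro hg
    obtain ⟨x, hx, y, hy, rfl⟩ := Set.mem_mul.1 hg
    have hxL : x ∈ L := hH (hXH hx)
    have hyL : y ∈ L := hK (hYK hy)
    refine ⟨⟨x, hxL⟩ * ⟨y, hyL⟩, ?_, rfl⟩
    change _ ∈ (S : Set L)
    rw [hS]
    exact Set.mem_mul.2 ⟨⟨x, hxL⟩, Subgroup.mem_subgroupOf.2 hx, ⟨y, hyL⟩,
      Subgroup.mem_subgroupOf.2 hy, rfl⟩

theorem syl_map_subtype {H H₀ : Subgroup G} (hle : H₀ ≤ H) (hnil : Group.IsNilpotent H₀)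
    (r : ℕ) [Fact r.Prime] : (syl (H₀.subgroupOf H) r).map H.subtype = syl H₀ r := by
  have e : (H₀.subgroupOf H).map H.subtype = H₀ := by
    rw [Subgroup.subgroupOf_map_subtype, inf_eq_left.2 hle]
  apply syl_eq hnil
  · calc (syl (H₀.subgroupOf H) r).map H.subtype ≤ (H₀.subgroupOf H).map H.subtype :=
        Subgroup.map_mono syl_le
      _ = H₀ := e
  · exact syl_isPGroup.map _
  · conv =>
      enter [1, 2, 2]
      rw [← e]
    rw [Subgroup.relIndex_map_map_of_injective _ _ H.subtype_injective]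
    exact syl_not_dvd_relIndex

/-- Relative version of Wielandt's normal complement theorem S0558. -/
theorem exists_normal_complement_rel (H H₀ : Subgroup G) (hle : H₀ ≤ H)
    (hnil : Group.IsNilpotent H₀) {p s : ℕ} (hp : p.Prime) (hs : s.Prime) (hps : p ≠ s)
    (hpH : p ∣ Nat.card H₀) (hsH : s ∣ Nat.card H₀)
    (hnorm : ∀ (r : ℕ) [Fact r.Prime], r ∣ Nat.card H₀ →
      H ⊓ normalizer (syl H₀ r : Set G) ≤ H₀) :
    ∃ K : Subgroup G, K ≤ H ∧ H ≤ normalizer (K : Set G) ∧ K ⊓ H₀ = ⊥ ∧ K ⊔ H₀ = H := by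
  have hcard : Nat.card (H₀.subgroupOf H) = Nat.card H₀ :=
    Cfsg.Agent.Lib.Helper1.card_subgroupOf hle
  have hnil' : Group.IsNilpotent (H₀.subgroupOf H) := isNilpotent_subgroupOf H₀ H hnil
  obtain ⟨N, hN, hc⟩ := Cfsg.Agent.S0558.result (G := H) (H₀.subgroupOf H)
    (by
      intro r hr P hP
      have h1 : IsPGroup r (H₀.subgroupOf H) := hP ▸ P.isPGroup'
      have : Fact r.Prime := ⟨hr⟩
      obtain ⟨k, hk⟩ := IsPGroup.iff_card.1 h1
      rw [hcard] at hk
      rw [hk] at hpH hsH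
      have e1 := (Nat.prime_dvd_prime_iff_eq hp hr).1 (hp.dvd_of_dvd_pow hpH)
      have e2 := (Nat.prime_dvd_prime_iff_eq hs hr).1 (hs.dvd_of_dvd_pow hsH)
      exact hps (e1.trans e2.symm))
    (by
      intro r hr hrd P
      have : Fact r.Prime := ⟨hr⟩
      obtain ⟨h1, h2, h3⟩ := Cfsg.Agent.Lib.Helper1.sylow_map_subtype_props P
      rw [syl_eq hnil' h1 h2 h3]
      apply le_antisymm _ (le_normalizer_syl hnil')
      intro n hn
      rw [Subgroup.mem_subgroupOf]
      apply hnorm r (hcard ▸ hrd)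
      refine Subgroup.mem_inf.2 ⟨n.2, ?_⟩
      rw [← syl_map_subtype hle hnil r, Subgroup.mem_normalizer_iff]
      rw [Subgroup.mem_normalizer_iff] at hn
      intro y
      constructor
      · rintro ⟨w, hw, rfl⟩
        exact ⟨n * w * n⁻¹, (hn w).1 hw, rfl⟩
      · rintro ⟨w, hw, hwy⟩
        have hyH : y ∈ H := by
          have e : y = (n : G)⁻¹ * ((n : G) * y * (n : G)⁻¹) * (n : G) := by group
          rw [e, ← hwy]
          exact mul_mem (mul_mem (inv_mem n.2) w.2) n.2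
        refine ⟨⟨y, hyH⟩, (hn ⟨y, hyH⟩).2 ?_, rfl⟩
        have e : n * ⟨y, hyH⟩ * n⁻¹ = w := Subtype.ext hwy.symm
        rw [e]
        exact hw)
  refine ⟨N.map H.subtype, Subgroup.map_subtype_le _, ?_, ?_, ?_⟩
  · rw [← Subgroup.normal_subgroupOf_iff_le_normalizer (Subgroup.map_subtype_le _)]
    have e : (N.map H.subtype).subgroupOf H = N :=
      Subgroup.comap_map_eq_self_of_injective H.subtype_injective _
    rw [e]
    exact hN
  · have h1 := hc.disjoint
    rw [disjoint_iff] at h1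
    have h2 := congrArg (Subgroup.map H.subtype) h1
    rw [Subgroup.map_inf _ _ _ H.subtype_injective, Subgroup.map_bot,
      Subgroup.subgroupOf_map_subtype, inf_eq_left.2 hle] at h2
    exact h2
  · have h1 := hc.sup_eq_top
    have h2 := congrArg (Subgroup.map H.subtype) h1
    rw [Subgroup.map_sup, Subgroup.subgroupOf_map_subtype, inf_eq_left.2 hle,
      ← MonoidHom.range_eq_map, Subgroup.range_subtype] at h2
    exact h2

end Cfsg.Agent.Lib.Helper91.KW
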