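import Mathlib
import Cfsg.Prelude.Def_SolvableStructure
import Cfsg.Agent.S0006
import Cfsg.Agent.Lib.Helper51.Card
import Cfsg.Agent.Lib.Helper51.PGroup
import Cfsg.Agent.Lib.Helper1.MinimalNormal
import Cfsg.Agent.Lib.Helper9.ComplementSystem2

/-!
System normalizers of finite solvable groups: covering/avoidance of chief factors.
-/

set_option autoImplicit false

namespace Cfsg.Agent.Lib.Helper91

open Subgroup
open scoped commutatorElement

variable {G : Type*} [Group G]

/-- Two subgroups of coprime index factorize the group. -/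
theorem exists_mul_of_coprime_index [Finite G] (H K : Subgroup G)
    (h : (H.index).Coprime K.index) : ∀ g : G, ∃ a ∈ H, ∃ b ∈ K, g = a * b := by
  have htop : H ⊔ K = ⊤ := by
    rw [← Subgroup.index_eq_one]
    exact Nat.eq_one_of_dvd_coprimes h (Subgroup.index_dvd_of_le le_sup_left)
      (Subgroup.index_dvd_of_le le_sup_right)
  have h1 : K.relIndex H = K.index := Cfsg.Agent.S0006.relIndex_eq_of_coprime h
  have h2 : Nat.card H * Nat.card K = Nat.card ↥(H ⊔ K) * Nat.card ↥(H ⊓ K) := by
    rw [Cfsg.Agent.Lib.Helper51.card_eq_card_inf_mul_relIndex H K, h1, htop, Subgroup.card_top,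
      ← Subgroup.card_mul_index K]
    ring
  intro g
  exact Cfsg.Agent.Lib.Helper51.exists_mul_of_card_eq H K h2 g (by rw [htop]; trivial)

/-- A normal `p`-subgroup lies in every Sylow `p`-subgroup. -/
theorem normal_pSubgroup_le_sylow [Finite G] {p : ℕ} [Fact p.Prime] {B : Subgroup G} [B.Normal]
    (hB : IsPGroup p B) (P : Sylow p G) : B ≤ P := by
  obtain ⟨Q, hQ⟩ := hB.exists_le_sylow
  obtain ⟨g, hg⟩ := MulAction.exists_smul_eq G Q P
  rw [← hg]
  intro x hx
  rw [Sylow.coe_subgroup_smul, Subgroup.mem_smul_pointwise_iff_exists]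
  refine ⟨g⁻¹ * x * g, hQ ?_, ?_⟩
  · have := (inferInstance : B.Normal).conj_mem x hx g⁻¹
    rwa [inv_inv] at this
  · rw [MulAut.smul_def, MulAut.conj_apply]
    group

/-- relative version: a subgroup `B` of a nilpotent subgroup `P` with `B ≤ [B, P]` is trivial. -/
theorem eq_bot_of_le_commutator_of_isNilpotent {B P : Subgroup G} (hP : Group.IsNilpotent P)
    (hBP : B ≤ P) (h : B ≤ ⁅B, P⁆) : B = ⊥ := by
  have h1 : B.subgroupOf P = ⊥ := by
    apply Cfsg.Agent.Lib.Helper51.eq_bot_of_le_commutator_top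
    rw [← Subgroup.map_le_map_iff_of_injective P.subtype_injective, Subgroup.map_commutator,
      Subgroup.subgroupOf_map_subtype, inf_eq_left.2 hBP, ← MonoidHom.range_eq_map,
      Subgroup.range_subtype]
    exact h
  rwa [Subgroup.subgroupOf_eq_bot, disjoint_iff, inf_eq_left.2 hBP] at h1

/-- **Key lemma.**  Let `B` be a minimal normal subgroup of `G` which is a `p`-group and `M` a
subgroup of `p`-power index.  Every element of `B` centralized by `M` is central in `G`. -/
theorem mem_center_of_centralized_by_pPower_index [Finite G] {p : ℕ} [Fact p.Prime]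
    {B : Subgroup G} [hBn : B.Normal] (hB : IsPGroup p B)
    (hmin : ∀ N : Subgroup G, N.Normal → N ≤ B → N = ⊥ ∨ N = B)
    {M : Subgroup G} (hM : ∃ k, M.index = p ^ k) {x : G} (hx : x ∈ B)
    (hxM : ∀ m ∈ M, m * x = x * m) : x ∈ Subgroup.center G := by
  obtain ⟨k, hk⟩ := hM
  let P : Sylow p G := default
  have hBP : B ≤ P := normal_pSubgroup_le_sylow hB P
  have hcop : ((P : Subgroup G).index).Coprime M.index := by
    rw [hk]
    apply Nat.Coprime.pow_right
    exact ((Nat.Prime.coprime_iff_not_dvd Fact.out).2 P.not_dvd_index).symm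
  have hfac := exists_mul_of_coprime_index (P : Subgroup G) M hcop
  have hcomm : ∀ g : G, ⁅x, g⁆ ∈ ⁅B, (P : Subgroup G)⁆ := by
    intro g
    obtain ⟨u, hu, m, hm, rfl⟩ := hfac g
    have : ⁅x, u * m⁆ = ⁅x, u⁆ := by
      rw [commutatorElement_def, commutatorElement_def]
      have h1 : m * x⁻¹ * m⁻¹ = x⁻¹ := by
        have h2 : Commute m x⁻¹ := Commute.inv_right (hxM m hm)
        rw [h2.eq, mul_inv_cancel_right]
      calc x * (u * m) * x⁻¹ * (u * m)⁻¹ = x * u * (m * x⁻¹ * m⁻¹) * u⁻¹ := by group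
        _ = x * u * x⁻¹ * u⁻¹ := by rw [h1]
    rw [this]
    exact Subgroup.commutator_mem_commutator hx hu
  let W : Subgroup G := Subgroup.normalClosure {y | ∃ g : G, y = ⁅x, g⁆}
  have hW : W ≤ ⁅B, (P : Subgroup G)⁆ := by
    change Subgroup.closure _ ≤ _
    rw [Subgroup.closure_le]
    intro y hy
    rw [Group.mem_conjugatesOfSet_iff] at hy
    obtain ⟨a, ⟨g, rfl⟩, hc⟩ := hy
    rw [isConj_iff] at hc
    obtain ⟨c, rfl⟩ := hc
    have : c * ⁅x, g⁆ * c⁻¹ = ⁅x, c⁆⁻¹ * ⁅x, c * g⁆ := by
      simp only [commutatorElement_def]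
      group
    rw [this]
    exact mul_mem (inv_mem (hcomm c)) (hcomm _)
  have hWB : W ≤ B := hW.trans (Subgroup.commutator_le_left B P)
  rcases hmin W Subgroup.normalClosure_normal hWB with h | h
  · rw [Subgroup.mem_center_iff]
    intro g
    have h1 : ⁅x, g⁆ ∈ W := Subgroup.subset_normalClosure ⟨g, rfl⟩
    rw [h, Subgroup.mem_bot, commutatorElement_eq_one_iff_mul_comm] at h1
    exact h1.symm
  · have h1 : B = ⊥ :=
      eq_bot_of_le_commutator_of_isNilpotent (P := (P : Subgroup G)) P.isPGroup'.isNilpotent hBP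
        (h ▸ hW)
    rw [h1, Subgroup.mem_bot] at hx
    rw [hx]
    exact one_mem _

/-- With `B` minimal normal `p`-group and `M` a `p`-complement: `B ∩ N_G(M) ≤ Z(G)`. -/
theorem inf_normalizer_le_center [Finite G] {p : ℕ} [Fact p.Prime]
    {B : Subgroup G} [hBn : B.Normal] (hB : IsPGroup p B)
    (hmin : ∀ N : Subgroup G, N.Normal → N ≤ B → N = ⊥ ∨ N = B)
    {M : Subgroup G} (hM : ∃ k, M.index = p ^ k) (hMc : (Nat.card M).Coprime p) :
    B ⊓ normalizer (M : Set G) ≤ Subgroup.center G := by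
  intro x hx
  obtain ⟨hxB, hxN⟩ := Subgroup.mem_inf.1 hx
  have hdisj : Disjoint B M := by
    apply Subgroup.disjoint_of_coprime_natCard
    obtain ⟨j, hj⟩ := IsPGroup.iff_card.1 hB
    rw [hj]
    exact (Nat.Coprime.pow_right j hMc).symm
  apply mem_center_of_centralized_by_pPower_index hB hmin hM hxB
  intro m hm
  have h1 : ⁅x, m⁆ ∈ B := by
    rw [commutatorElement_def, mul_assoc, mul_assoc]
    apply mul_mem hxB
    rw [← mul_assoc]
    exact hBn.conj_mem _ (inv_mem hxB) m
  have h2 : ⁅x, m⁆ ∈ M := by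
    rw [commutatorElement_def]
    exact mul_mem ((Subgroup.mem_normalizer_iff.1 hxN m).1 hm) (inv_mem hm)
  have h3 : ⁅x, m⁆ = 1 := by
    have := (Subgroup.disjoint_def.1 hdisj) h1 h2
    exact this
  rw [commutatorElement_eq_one_iff_mul_comm] at h3
  exact h3.symm

theorem center_le_systemNormalizer (K : Nat.Primes → Subgroup G) :
    Subgroup.center G ≤ Cfsg.systemNormalizer K := by
  intro x hx
  unfold Cfsg.systemNormalizer
  rw [Subgroup.mem_iInf]
  intro p
  exact Subgroup.center_le_normalizer _ hx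

theorem le_center_of_inf_center_ne_bot {B : Subgroup G} [hBn : B.Normal]
    (hmin : ∀ N : Subgroup G, N.Normal → N ≤ B → N = ⊥ ∨ N = B)
    (h : B ⊓ Subgroup.center G ≠ ⊥) : B ≤ Subgroup.center G := by
  rcases hmin (B ⊓ Subgroup.center G) inferInstance inf_le_left with h1 | h1
  · exact absurd h1 h
  · exact inf_eq_left.1 h1

/-- A system normalizer avoids an eccentric minimal normal subgroup. -/
theorem inf_systemNormalizer_eq_bot [Finite G] {K : Nat.Primes → Subgroup G}
    (hK : Cfsg.IsComplementSystem K) {B : Subgroup G} [hBn : B.Normal]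
    (hBs : Group.IsSolvable B)
    (hmin : ∀ N : Subgroup G, N.Normal → N ≤ B → N = ⊥ ∨ N = B)
    (hecc : ¬ B ≤ Subgroup.center G) : B ⊓ Cfsg.systemNormalizer K = ⊥ := by
  have hne : B ≠ ⊥ := by
    rintro rfl
    exact hecc bot_le
  obtain ⟨-, p, hp, hpow⟩ := Cfsg.Agent.Lib.Helper1.minimal_normal_elementary_abelian B hBs hne hmin
  have hB : IsPGroup p B := Cfsg.Agent.Lib.Helper1.isPGroup_of_forall_pow_eq_one hpow
  have : Fact p.Prime := ⟨hp⟩
  let p' : Nat.Primes := ⟨p, hp⟩
  by_contra hcon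
  apply hecc
  apply le_center_of_inf_center_ne_bot hmin
  intro h0
  apply hcon
  rw [eq_bot_iff, ← h0]
  apply le_inf inf_le_left
  refine le_trans ?_ (inf_normalizer_le_center hB hmin (M := K p') ⟨_, hK p'⟩
    (Cfsg.Agent.Lib.Helper9.complementSystem_card_coprime hK p'))
  apply inf_le_inf_left
  exact iInf_le _ p'

end Cfsg.Agent.Lib.Helper91
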