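import Mathlib
import Cfsg.Agent.Lib.Helper91.SysNorm
import Cfsg.Agent.Lib.Helper91.Fitting
import Cfsg.Agent.Lib.Helper1.Carter
import Cfsg.Agent.Lib.Helper1.Hall

/-!
System normalizers and Carter subgroups: a complement system reducing into a Carter subgroup `C`
has its system normalizer inside `C`.
-/

set_option autoImplicit false

namespace Cfsg.Agent.Lib.Helper91

open Subgroup
open scoped commutatorElement Pointwise

universe u

section basics

variable {G : Type*} [Group G]

/-- `K` reduces into `H`: each `K q ⊓ H` has `q`-power index in `H`. -/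
def Reduces (K : Nat.Primes → Subgroup G) (H : Subgroup G) : Prop :=
  ∀ q : Nat.Primes, ∃ k : ℕ, (K q).relIndex H = (q : ℕ) ^ k

theorem exists_pow_of_dvd_pow {q : Nat.Primes} {a k : ℕ} (h : a ∣ (q : ℕ) ^ k) :
    ∃ j, a = (q : ℕ) ^ j := by
  obtain ⟨j, -, hj⟩ := (Nat.dvd_prime_pow q.prop).1 h
  exact ⟨j, hj⟩

theorem isComplementSystem_of_pow [Finite G] {K : Nat.Primes → Subgroup G}
    (h1 : ∀ q : Nat.Primes, ∃ k : ℕ, (K q).index = (q : ℕ) ^ k)
    (h2 : ∀ q : Nat.Primes, (Nat.card (K q)).Coprime q) : Cfsg.IsComplementSystem K := by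
  intro q
  obtain ⟨k, hk⟩ := h1 q
  have h3 := Subgroup.card_mul_index (K q)
  rw [hk] at h3
  rw [hk, ← h3, Nat.factorization_mul (Nat.card_pos).ne' (pow_ne_zero _ q.prop.ne_zero),
    Nat.Prime.factorization_pow q.prop]
  have h4 : (Nat.card (K q)).factorization q = 0 := by
    apply Nat.factorization_eq_zero_of_not_dvd
    intro hd
    exact q.prop.one_lt.ne' (Nat.eq_one_of_dvd_coprimes (h2 q) hd dvd_rfl)
  simp [h4]

theorem relIndex_map_dvd {G' : Type*} [Group G'] (f : G →* G') (H C : Subgroup G) :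
    (H.map f).relIndex (C.map f) ∣ H.relIndex C := by
  have h1 : ((H.subgroupOf C).map (f.subgroupMap C)) ≤ (H.map f).subgroupOf (C.map f) := by
    rintro _ ⟨x, hx, rfl⟩
    exact Subgroup.mem_subgroupOf.2 ⟨x, hx, rfl⟩
  exact (Subgroup.index_dvd_of_le h1).trans
    (Subgroup.index_map_dvd _ (f.subgroupMap_surjective C))

theorem relIndex_sup_normal [Finite G] (H F : Subgroup G) [F.Normal] :
    H.relIndex (H ⊔ F) = H.relIndex F := by
  have e1 : H.relIndex (H ⊔ F) * Nat.card H = Nat.card (H ⊔ F : Subgroup G) := by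
    rw [← relIndex_bot_left, ← relIndex_bot_left, mul_comm]
    exact relIndex_mul_relIndex _ _ _ bot_le le_sup_left
  have e2 : F.relIndex (H ⊔ F) * Nat.card F = Nat.card (H ⊔ F : Subgroup G) := by
    rw [← relIndex_bot_left, ← relIndex_bot_left, mul_comm]
    exact relIndex_mul_relIndex _ _ _ bot_le le_sup_right
  have e3 : F.relIndex H * Nat.card (H ⊓ F : Subgroup G) = Nat.card H := by
    rw [← inf_relIndex_left, ← relIndex_bot_left, ← relIndex_bot_left, mul_comm]
    exact relIndex_mul_relIndex _ _ _ bot_le inf_le_left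
  have e4 : H.relIndex F * Nat.card (H ⊓ F : Subgroup G) = Nat.card F := by
    rw [← inf_relIndex_right, ← relIndex_bot_left, ← relIndex_bot_left, mul_comm]
    exact relIndex_mul_relIndex _ _ _ bot_le inf_le_right
  rw [relIndex_sup_right] at e2
  have hpos1 : 0 < Nat.card (H ⊓ F : Subgroup G) := Nat.card_pos
  have hpos2 : 0 < F.relIndex H := by
    rcases Nat.eq_zero_or_pos (F.relIndex H) with h | h
    · rw [h, zero_mul] at e3
      exact absurd e3.symm (Nat.card_pos).ne'
    · exact h
  have : H.relIndex (H ⊔ F) * (F.relIndex H * Nat.card (H ⊓ F : Subgroup G)) =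
      H.relIndex F * (F.relIndex H * Nat.card (H ⊓ F : Subgroup G)) := by
    calc H.relIndex (H ⊔ F) * (F.relIndex H * Nat.card (H ⊓ F : Subgroup G))
        = Nat.card (H ⊔ F : Subgroup G) := by rw [e3, e1]
      _ = F.relIndex H * (H.relIndex F * Nat.card (H ⊓ F : Subgroup G)) := by rw [e4, e2]
      _ = _ := by ring
  exact Nat.eq_of_mul_eq_mul_right (Nat.mul_pos hpos2 hpos1) this

theorem reduces_subgroupOf [Finite G] {K : Nat.Primes → Subgroup G}
    (hK : Cfsg.IsComplementSystem K) {L : Subgroup G} (hL : Reduces K L) :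
    Cfsg.IsComplementSystem (fun q => (K q).subgroupOf L) := by
  apply isComplementSystem_of_pow
  · intro q
    exact hL q
  · intro q
    exact Nat.Coprime.coprime_dvd_left (Cfsg.Agent.S0006.card_subgroupOf_dvd (K q) L)
      (Cfsg.Agent.Lib.Helper9.complementSystem_card_coprime hK q)

theorem reduces_map {K : Nat.Primes → Subgroup G} {C : Subgroup G} (h : Reduces K C)
    {G' : Type*} [Group G'] (f : G →* G') : Reduces (fun q => (K q).map f) (C.map f) := by
  intro q
  obtain ⟨k, hk⟩ := h q
  exact exists_pow_of_dvd_pow (k := k) (hk ▸ relIndex_map_dvd f (K q) C)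

theorem reduces_sup [Finite G] {K : Nat.Primes → Subgroup G}
    (hK : Cfsg.IsComplementSystem K) {C : Subgroup G} (h : Reduces K C) (N : Subgroup G)
    [N.Normal] : Reduces K (C ⊔ N) := by
  intro q
  obtain ⟨k, hk⟩ := h q
  set X := K q with hX
  set L := C ⊔ N with hL
  set X' := X ⊓ L with hX'
  have h1 : X'.relIndex (X' ⊔ N) * (X' ⊔ N).relIndex L = X'.relIndex L :=
    relIndex_mul_relIndex _ _ _ le_sup_left (sup_le inf_le_right le_sup_right)
  have h2 : X'.relIndex (X' ⊔ N) ∣ (q : ℕ) ^ (Nat.card G).factorization q := by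
    rw [relIndex_sup_normal, hX', ← hK q]
    have : (X ⊓ L).relIndex N = X.relIndex N := by
      rw [← inf_relIndex_right, ← inf_relIndex_right X N, inf_assoc,
        inf_eq_right.2 (le_sup_right : N ≤ L)]
    rw [this]
    exact relIndex_dvd_index_of_normal_right X N
  have h3 : (X' ⊔ N).relIndex L ∣ (q : ℕ) ^ k := by
    have h4 : (X ⊓ C) ⊔ N ≤ X' ⊔ N :=
      sup_le_sup_right (le_inf inf_le_left (inf_le_right.trans le_sup_left)) N
    refine (relIndex_dvd_of_le_left L h4).trans ?_
    have h5 := relIndex_map_map (QuotientGroup.mk' N) (X ⊓ C) C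
    rw [QuotientGroup.ker_mk'] at h5
    rw [hL, ← h5, ← hk, ← inf_relIndex_right X C]
    exact relIndex_map_dvd _ _ _
  rw [← inf_relIndex_right, ← h1]
  exact exists_pow_of_dvd_pow (k := (Nat.card G).factorization q + k)
    (by rw [pow_add]; exact mul_dvd_mul h2 h3)

/-- the top case of the induction: `G = C N`, `N` minimal normal `p`-group not inside `C`. -/
theorem systemNormalizer_le_of_sup_eq_top [Finite G] {K : Nat.Primes → Subgroup G}
    (hK : Cfsg.IsComplementSystem K) {C : Subgroup G} (hC : Cfsg.IsCarterSubgroup C)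
    (hred : Reduces K C) {p : ℕ} (hp : p.Prime) {N : Subgroup G} [hNn : N.Normal]
    (hNp : IsPGroup p N) (hNab : IsMulCommutative N)
    (hmin : ∀ M : Subgroup G, M.Normal → M ≤ N → M = ⊥ ∨ M = N)
    (htop : C ⊔ N = ⊤) : Cfsg.systemNormalizer K ≤ C := by
  have : Fact p.Prime := ⟨hp⟩
  by_cases hNC : N ≤ C
  · rw [sup_eq_left.2 hNC] at htop
    rw [htop]
    exact le_top
  let p' : Nat.Primes := ⟨p, hp⟩
  -- `C ⊓ N` is normal
  have hCNn : (C ⊓ N).Normal := by
    rw [← Subgroup.normalizer_eq_top_iff, eq_top_iff, ← htop]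
    apply sup_le
    · intro c hc
      rw [Subgroup.mem_normalizer_iff]
      intro y
      constructor
      · intro hy
        obtain ⟨hy1, hy2⟩ := Subgroup.mem_inf.1 hy
        exact Subgroup.mem_inf.2 ⟨mul_mem (mul_mem hc hy1) (inv_mem hc), hNn.conj_mem y hy2 c⟩
      · intro hy
        obtain ⟨hy1, hy2⟩ := Subgroup.mem_inf.1 hy
        have e : y = c⁻¹ * (c * y * c⁻¹) * c⁻¹⁻¹ := by group
        rw [e]
        exact Subgroup.mem_inf.2 ⟨mul_mem (mul_mem (inv_mem hc) hy1) (inv_mem (inv_mem hc)),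
          hNn.conj_mem _ hy2 c⁻¹⟩
    · intro n hn
      rw [Subgroup.mem_normalizer_iff]
      intro y
      have key : ∀ z ∈ N, n * z * n⁻¹ = z := by
        intro z hz
        have := setLike_mul_comm (s := N) hn hz
        rw [this, mul_inv_cancel_right]
      constructor
      · intro hy
        rw [key y (Subgroup.mem_inf.1 hy).2]
        exact hy
      · intro hy
        have hyN : y ∈ N := by
          have e : y = n⁻¹ * (n * y * n⁻¹) * n⁻¹⁻¹ := by group
          rw [e]
          exact hNn.conj_mem _ (Subgroup.mem_inf.1 hy).2 n⁻¹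
        rw [key y hyN] at hy
        exact hy
  have hCN : C ⊓ N = ⊥ := by
    rcases hmin _ hCNn inf_le_right with h | h
    · exact h
    · exact absurd (inf_eq_right.1 h) hNC
  have hecc : N ⊓ Subgroup.center G = ⊥ := by
    by_contra h
    have h1 := le_center_of_inf_center_ne_bot hmin h
    apply hNC
    calc N ≤ Subgroup.center G := h1
      _ ≤ normalizer (C : Set G) := Subgroup.center_le_normalizer _
      _ = C := hC.2
  -- `K p ≤ C`
  have hKC : K p' ≤ C := by
    rw [← Subgroup.relIndex_eq_one]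
    obtain ⟨k, hk⟩ := hred p'
    have hCi : C.index ∣ Nat.card N := by
      have h1 : C.relIndex (C ⊔ N) = C.relIndex N := relIndex_sup_normal C N
      rw [htop, Subgroup.relIndex_top_right] at h1
      rw [h1]
      exact Subgroup.relIndex_dvd_card _ _
    obtain ⟨j, hj⟩ := IsPGroup.iff_card.1 hNp
    rw [hj] at hCi
    have e1 : (K p' ⊓ C).relIndex (K p') * (K p').index = (K p' ⊓ C).index :=
      Subgroup.relIndex_mul_index inf_le_left
    have e2 : (K p' ⊓ C).relIndex C * C.index = (K p' ⊓ C).index :=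
      Subgroup.relIndex_mul_index inf_le_right
    rw [Subgroup.inf_relIndex_left] at e1
    rw [Subgroup.inf_relIndex_right, hk] at e2
    have h3 : C.relIndex (K p') ∣ p ^ (k + j) := by
      rw [pow_add]
      refine dvd_trans ?_ (mul_dvd_mul_left (p ^ k) hCi)
      change _ ∣ (p' : ℕ) ^ k * C.index
      rw [e2, ← e1]
      exact dvd_mul_right _ _
    have h4 : C.relIndex (K p') ∣ Nat.card (K p') := Subgroup.relIndex_dvd_card _ _
    have h5 : (Nat.card (K p')).Coprime (p ^ (k + j)) :=
      Nat.Coprime.pow_right _ (Cfsg.Agent.Lib.Helper9.complementSystem_card_coprime hK p')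
    exact Nat.eq_one_of_dvd_coprimes h5 h4 h3
  intro x hx
  have hxN : x ∈ normalizer (K p' : Set G) := by
    unfold Cfsg.systemNormalizer at hx
    exact (Subgroup.mem_iInf.1 hx) p'
  have hxt : x ∈ C ⊔ N := by rw [htop]; trivial
  rw [← SetLike.mem_coe, Subgroup.mul_normal, Set.mem_mul] at hxt
  obtain ⟨c, hc, n, hn, rfl⟩ := hxt
  rw [SetLike.mem_coe] at hc hn
  have hncen : n ∈ Subgroup.center G := by
    apply mem_center_of_centralized_by_pPower_index hNp hmin (M := K p') ⟨_, hK p'⟩ hn
    intro m hm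
    have h1 : ⁅n, m⁆ ∈ N := by
      rw [commutatorElement_def, mul_assoc, mul_assoc]
      apply mul_mem hn
      rw [← mul_assoc]
      exact hNn.conj_mem _ (inv_mem hn) m
    have h2 : ⁅n, m⁆ ∈ C := by
      rw [commutatorElement_def]
      refine mul_mem ?_ (inv_mem (hKC hm))
      have h3 : c * n * m * (c * n)⁻¹ ∈ K p' := (Subgroup.mem_normalizer_iff.1 hxN m).1 hm
      have e : n * m * n⁻¹ = c⁻¹ * (c * n * m * (c * n)⁻¹) * c := by group
      rw [e]
      exact mul_mem (mul_mem (inv_mem hc) (hKC h3)) hc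
    have h3 : ⁅n, m⁆ ∈ C ⊓ N := Subgroup.mem_inf.2 ⟨h2, h1⟩
    rw [hCN, Subgroup.mem_bot, commutatorElement_eq_one_iff_mul_comm] at h3
    exact h3.symm
  have hn1 : n ∈ N ⊓ Subgroup.center G := Subgroup.mem_inf.2 ⟨hn, hncen⟩
  rw [hecc, Subgroup.mem_bot] at hn1
  rw [hn1, mul_one]
  exact hc

end basics

theorem systemNormalizer_le_carter_aux (n : ℕ) :
    ∀ (G : Type u) [Group G] [Finite G] [Group.IsSolvable G], Nat.card G = n →
      ∀ (K : Nat.Primes → Subgroup G), Cfsg.IsComplementSystem K →
        ∀ C : Subgroup G, Cfsg.IsCarterSubgroup C → Reduces K C →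
          Cfsg.systemNormalizer K ≤ C := by
  induction n using Nat.strong_induction_on with
  | _ n ih =>
  intro G _ _ _ hn K hK C hC hred
  subst hn
  by_cases hnt : Nontrivial G
  swap
  · rw [not_nontrivial_iff_subsingleton] at hnt
    intro x _
    rw [Subsingleton.elim x 1]
    exact one_mem _
  obtain ⟨p, N, hp, hNn, hNne, hNp, hNab, hmin⟩ :=
    Cfsg.Agent.Lib.Helper1.exists_normal_pSubgroup_of_solvable (G := G)
  let π := QuotientGroup.mk' N
  have hπ : Function.Surjective π := QuotientGroup.mk'_surjective N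
  have hker : π.ker = N := QuotientGroup.ker_mk' N
  have hq : Cfsg.systemNormalizer K ≤ C ⊔ N := by
    have h1 := ih (Nat.card (G ⧸ N)) (Cfsg.Agent.Lib.Helper1.card_quotient_lt_of_ne_bot hNne)
      (G ⧸ N) rfl (fun q => (K q).map π) (Cfsg.Agent.Lib.Helper9.complementSystem_map hK N)
      (C.map π) (Cfsg.Agent.Lib.Helper1.Carter.isCarter_map hπ hC) (reduces_map hred π)
    rw [Cfsg.Agent.Lib.Helper9.systemNormalizer_map hK N, Subgroup.map_le_map_iff, hker] at h1
    exact h1
  by_cases htop : C ⊔ N = ⊤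
  · exact systemNormalizer_le_of_sup_eq_top hK hC hred hp hNp hNab hmin htop
  set L := C ⊔ N with hL
  have hCL : C ≤ L := le_sup_left
  have hredL : Reduces K L := reduces_sup hK hred N
  have h1 := ih (Nat.card L) (Cfsg.Agent.Lib.Helper1.card_subgroup_lt_of_ne_top htop) L rfl
    (fun q => (K q).subgroupOf L) (reduces_subgroupOf hK hredL) (C.subgroupOf L)
    (Cfsg.Agent.Lib.Helper1.Carter.isCarter_subgroupOf hC hCL)
    (by
      intro q
      obtain ⟨k, hk⟩ := hred q
      exact ⟨k, by rw [Subgroup.relIndex_subgroupOf hCL]; exact hk⟩)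
  intro x hx
  have hxL : x ∈ L := hq hx
  have h2 : (⟨x, hxL⟩ : L) ∈ Cfsg.systemNormalizer (fun q => (K q).subgroupOf L) := by
    unfold Cfsg.systemNormalizer at hx ⊢
    rw [Subgroup.mem_iInf] at hx ⊢
    intro q
    have h3 := hx q
    rw [Subgroup.mem_normalizer_iff] at h3 ⊢
    intro y
    rw [Subgroup.mem_subgroupOf, Subgroup.mem_subgroupOf]
    exact h3 y
  exact Subgroup.mem_subgroupOf.1 (h1 h2)

/-- If a complement system `K` reduces into the Carter subgroup `C`, then `N_G(K) ≤ C`. -/
theorem systemNormalizer_le_carter {G : Type u} [Group G] [Finite G] [Group.IsSolvable G]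
    {K : Nat.Primes → Subgroup G} (hK : Cfsg.IsComplementSystem K) {C : Subgroup G}
    (hC : Cfsg.IsCarterSubgroup C) (hred : Reduces K C) : Cfsg.systemNormalizer K ≤ C :=
  systemNormalizer_le_carter_aux _ G rfl K hK C hC hred

/-- Every subgroup of a finite solvable group has a complement system reducing into it. -/
theorem exists_reduces {G : Type u} [Group G] [Finite G] [Group.IsSolvable G] (C : Subgroup G) :
    ∃ K : Nat.Primes → Subgroup G, Cfsg.IsComplementSystem K ∧ Reduces K C := by
  have key : ∀ q : Nat.Primes, ∃ X : Subgroup G,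
      X.index = (q : ℕ) ^ (Nat.card G).factorization q ∧ ∃ k : ℕ, X.relIndex C = (q : ℕ) ^ k := by
    intro q
    obtain ⟨H, hH⟩ := Cfsg.Agent.Lib.Helper1.hall_exists (G := C)
      (ordCompl[(q : ℕ)] (Nat.card C)) (ordProj[(q : ℕ)] (Nat.card C))
      (by rw [mul_comm]; exact (Nat.ordProj_mul_ordCompl_eq_self _ _).symm)
      ((Nat.coprime_ordCompl q.prop (Nat.card_pos).ne').symm.pow_right _)
    have hH' : Nat.card (H.map C.subtype) = ordCompl[(q : ℕ)] (Nat.card C) := by
      rw [Subgroup.card_map_of_injective C.subtype_injective, hH]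
    obtain ⟨X, hX, hHX⟩ := Cfsg.Agent.Lib.Helper1.hall_dominance (G := G)
      (ordCompl[(q : ℕ)] (Nat.card G)) (ordProj[(q : ℕ)] (Nat.card G))
      (by rw [mul_comm]; exact (Nat.ordProj_mul_ordCompl_eq_self _ _).symm)
      ((Nat.coprime_ordCompl q.prop (Nat.card_pos).ne').symm.pow_right _)
      (H.map C.subtype)
      (by rw [hH']; exact (Nat.coprime_ordCompl q.prop (Nat.card_pos).ne').symm.pow_right _)
    refine ⟨X, ?_, ?_⟩
    · have h1 := Subgroup.card_mul_index X
      rw [hX] at h1
      have h2 := Nat.ordProj_mul_ordCompl_eq_self (Nat.card G) q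
      have h3 : X.index * ordCompl[(q : ℕ)] (Nat.card G) =
          ordProj[(q : ℕ)] (Nat.card G) * ordCompl[(q : ℕ)] (Nat.card G) := by
        rw [mul_comm, h1, h2]
      exact Nat.eq_of_mul_eq_mul_right (Nat.ordCompl_pos _ (Nat.card_pos).ne') h3
    · have h1 : X.relIndex C ∣ (H.map C.subtype).relIndex C := relIndex_dvd_of_le_left C hHX
      have h2 : (H.map C.subtype).relIndex C = H.index := by
        unfold Subgroup.relIndex Subgroup.subgroupOf
        rw [Subgroup.comap_map_eq_self_of_injective C.subtype_injective]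
      have h3 : H.index = (q : ℕ) ^ (Nat.card C).factorization q := by
        have h4 := Subgroup.card_mul_index H
        rw [hH] at h4
        have h5 := Nat.ordProj_mul_ordCompl_eq_self (Nat.card C) q
        have h6 : H.index * ordCompl[(q : ℕ)] (Nat.card C) =
            ordProj[(q : ℕ)] (Nat.card C) * ordCompl[(q : ℕ)] (Nat.card C) := by
          rw [mul_comm, h4, h5]
        exact Nat.eq_of_mul_eq_mul_right (Nat.ordCompl_pos _ (Nat.card_pos).ne') h6
      rw [h2, h3] at h1
      exact exists_pow_of_dvd_pow h1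
  choose K hK1 hK2 using key
  exact ⟨K, hK1, hK2⟩

theorem systemNormalizer_conj_le {G : Type*} [Group G] {K : Nat.Primes → Subgroup G} (n : G) :
    Cfsg.systemNormalizer (fun p => MulAut.conj n • K p) ≤
      MulAut.conj n • Cfsg.systemNormalizer K := by
  intro x hx
  rw [Cfsg.Agent.Lib.Helper1.mem_conj_smul_iff, Cfsg.Agent.Lib.Helper9.mem_systemNormalizer]
  rw [Cfsg.Agent.Lib.Helper9.mem_systemNormalizer] at hx
  intro p
  have h := hx p
  rw [Cfsg.Agent.Lib.Helper1.conj_mul_smul, Cfsg.Agent.Lib.Helper1.conj_mul_smul, h,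
    ← Cfsg.Agent.Lib.Helper1.conj_mul_smul, inv_mul_cancel, map_one, one_smul]

end Cfsg.Agent.Lib.Helper91
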