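import Mathlib
import Cfsg.Agent.Lib.Helper91.SysNorm2
import Cfsg.Agent.Lib.Helper1.Nilpotent

/-!
In a finite nilpotent-by-nilpotent group a Carter subgroup containing a system normalizer equals it.
-/

set_option autoImplicit false

namespace Cfsg.Agent.Lib.Helper91

open Subgroup
open scoped commutatorElement Pointwise

universe u

theorem exists_central_of_normal_in_nilpotent {G : Type*} [Group G] {H M : Subgroup G}
    (hH : Group.IsNilpotent H) (hMH : M ≤ H) (hn : H ≤ normalizer (M : Set G)) (hne : M ≠ ⊥) :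
    ∃ z ∈ M, z ≠ 1 ∧ ∀ h ∈ H, h * z = z * h := by
  have h1 : (M.subgroupOf H).Normal := (Subgroup.normal_subgroupOf_iff_le_normalizer hMH).2 hn
  have h2 : M.subgroupOf H ≠ ⊥ := by
    intro h
    rw [Subgroup.subgroupOf_eq_bot, disjoint_iff, inf_eq_left.2 hMH] at h
    exact hne h
  have h3 := Cfsg.Agent.Lib.Helper1.normal_inf_center_ne_bot h2
  rw [Subgroup.ne_bot_iff_exists_ne_one] at h3
  obtain ⟨⟨z, hz⟩, hz1⟩ := h3
  obtain ⟨hzM, hzc⟩ := Subgroup.mem_inf.1 hz
  refine ⟨z, Subgroup.mem_subgroupOf.1 hzM, ?_, ?_⟩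
  · intro h
    apply hz1
    apply Subtype.ext
    apply Subtype.ext
    exact h
  · intro h hh
    have := Subgroup.mem_center_iff.1 hzc ⟨h, hh⟩
    exact congrArg Subtype.val this

theorem carter_le_systemNormalizer_aux (n : ℕ) :
    ∀ (G : Type u) [Group G] [Finite G] [Group.IsSolvable G], Nat.card G = n →
      ∀ (F : Subgroup G) [F.Normal], Group.IsNilpotent F → Group.IsNilpotent (G ⧸ F) →
      ∀ (K : Nat.Primes → Subgroup G), Cfsg.IsComplementSystem K →
        ∀ C : Subgroup G, Cfsg.IsCarterSubgroup C → Cfsg.systemNormalizer K ≤ C →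
          C ≤ Cfsg.systemNormalizer K := by
  induction n using Nat.strong_induction_on with
  | _ n ih =>
  intro G _ _ _ hn F₀ hF₀n hF₀ hGF₀ K hK C hC hDC
  subst hn
  by_cases hnt : Nontrivial G
  swap
  · rw [not_nontrivial_iff_subsingleton] at hnt
    intro x _
    rw [Subsingleton.elim x 1]
    exact one_mem _
  obtain ⟨F, hFn, hFne, hF, hGF⟩ : ∃ F : Subgroup G, ∃ _ : F.Normal, F ≠ ⊥ ∧ Group.IsNilpotent F ∧
      Group.IsNilpotent (G ⧸ F) := by
    by_cases h0 : F₀ = ⊥
    · subst h0
      have hG : Group.IsNilpotent G :=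
        Group.nilpotent_of_mulEquiv (QuotientGroup.quotientBot (G := G))
      refine ⟨⊤, inferInstance, top_ne_bot, ?_, ?_⟩
      · exact Group.nilpotent_of_mulEquiv (Subgroup.topEquiv (G := G)).symm
      · exact Group.nilpotent_of_surjective (QuotientGroup.mk' (⊤ : Subgroup G))
          (QuotientGroup.mk'_surjective _)
    · exact ⟨F₀, hF₀n, h0, hF₀, hGF₀⟩
  obtain ⟨N, hNn, hNne, hNF, hmin⟩ := Cfsg.Agent.Lib.Helper1.exists_minimal_normal_le hFn hFne
  let π := QuotientGroup.mk' N
  have hπ : Function.Surjective π := QuotientGroup.mk'_surjective N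
  have hker : π.ker = N := QuotientGroup.ker_mk' N
  -- quotient step
  have hq : C ≤ Cfsg.systemNormalizer K ⊔ N := by
    have hFn' : (F.map π).Normal := Subgroup.Normal.map hFn π hπ
    have hF' : Group.IsNilpotent (F.map π) :=
      Group.nilpotent_of_surjective (π.subgroupMap F) (π.subgroupMap_surjective F)
    have hGF' : Group.IsNilpotent ((G ⧸ N) ⧸ F.map π) := by
      apply Group.nilpotent_of_surjective
        (QuotientGroup.map F (F.map π) π (Subgroup.le_comap_map π F))
      intro y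
      obtain ⟨y', rfl⟩ := QuotientGroup.mk'_surjective _ y
      obtain ⟨x, rfl⟩ := hπ y'
      exact ⟨QuotientGroup.mk' F x, rfl⟩
    have h1 := ih (Nat.card (G ⧸ N)) (Cfsg.Agent.Lib.Helper1.card_quotient_lt_of_ne_bot hNne)
      (G ⧸ N) rfl (F.map π) hF' hGF' (fun q => (K q).map π)
      (Cfsg.Agent.Lib.Helper9.complementSystem_map hK N)
      (C.map π) (Cfsg.Agent.Lib.Helper1.Carter.isCarter_map hπ hC)
      (by
        rw [Cfsg.Agent.Lib.Helper9.systemNormalizer_map hK N]
        exact Subgroup.map_mono hDC)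
    rw [Cfsg.Agent.Lib.Helper9.systemNormalizer_map hK N, Subgroup.map_le_map_iff, hker] at h1
    exact h1
  by_cases hcen : N ≤ Subgroup.center G
  · rw [sup_eq_left.2 (hcen.trans (center_le_systemNormalizer K))] at hq
    exact hq
  -- `F` centralizes `N`
  have hNcF : N ≤ centralizer (F : Set G) := by
    obtain ⟨z, hzN, hz1, hzc⟩ := exists_central_of_normal_in_nilpotent hF hNF
      Subgroup.le_normalizer_of_normal hNne
    rcases hmin (N ⊓ centralizer (F : Set G)) inferInstance inf_le_left with h | h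
    · exfalso
      apply hz1
      rw [← Subgroup.mem_bot, ← h]
      refine Subgroup.mem_inf.2 ⟨hzN, ?_⟩
      rw [Subgroup.mem_centralizer_iff]
      intro f hf
      exact hzc f hf
    · exact inf_eq_left.1 h
  have hCF : C ⊔ F = ⊤ :=
    Cfsg.Agent.Lib.Helper1.Carter.eq_top_of_normalizer_eq_of_nilpotent_quotient
      (f := QuotientGroup.mk' F) (QuotientGroup.mk'_surjective F)
      (by rw [QuotientGroup.ker_mk']; exact le_sup_right)
      (Cfsg.Agent.Lib.Helper1.Carter.carter_overgroup hC le_sup_left)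
  have hCN : C ⊓ N = ⊥ := by
    by_contra hne
    obtain ⟨z, hzN, hz1, hzc⟩ := exists_central_of_normal_in_nilpotent hC.1
      (inf_le_left : C ⊓ N ≤ C)
      (by
        intro c hc
        rw [Subgroup.mem_normalizer_iff]
        intro y
        constructor
        · intro hy
          obtain ⟨hy1, hy2⟩ := Subgroup.mem_inf.1 hy
          exact Subgroup.mem_inf.2 ⟨mul_mem (mul_mem hc hy1) (inv_mem hc), hNn.conj_mem y hy2 c⟩
        · intro hy
          obtain ⟨hy1, hy2⟩ := Subgroup.mem_inf.1 hy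
          have e : y = c⁻¹ * (c * y * c⁻¹) * c⁻¹⁻¹ := by group
          rw [e]
          exact Subgroup.mem_inf.2 ⟨mul_mem (mul_mem (inv_mem hc) hy1) (inv_mem (inv_mem hc)),
            hNn.conj_mem _ hy2 c⁻¹⟩) hne
    apply hcen
    apply le_center_of_inf_center_ne_bot hmin
    intro h0
    apply hz1
    rw [← Subgroup.mem_bot, ← h0]
    refine Subgroup.mem_inf.2 ⟨(Subgroup.mem_inf.1 hzN).2, ?_⟩
    have h1 : C ⊔ F ≤ centralizer ({z} : Set G) := by
      apply sup_le
      · intro c hc
        rw [Subgroup.mem_centralizer_singleton_iff]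
        exact hzc c hc
      · intro f hf
        rw [Subgroup.mem_centralizer_singleton_iff]
        exact (Subgroup.mem_centralizer_iff.1 (hNcF (Subgroup.mem_inf.1 hzN).2)) f hf
    rw [hCF] at h1
    rw [Subgroup.mem_center_iff]
    intro g
    exact Subgroup.mem_centralizer_singleton_iff.1 (h1 (Subgroup.mem_top g))
  intro x hx
  have hxt := hq hx
  rw [← SetLike.mem_coe, Subgroup.mul_normal, Set.mem_mul] at hxt
  obtain ⟨d, hd, m, hm, rfl⟩ := hxt
  rw [SetLike.mem_coe] at hd hm
  have hmC : m ∈ C := by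
    have e : m = d⁻¹ * (d * m) := by group
    rw [e]
    exact mul_mem (inv_mem (hDC hd)) hx
  have hm1 : m ∈ C ⊓ N := Subgroup.mem_inf.2 ⟨hmC, hm⟩
  rw [hCN, Subgroup.mem_bot] at hm1
  rw [hm1, mul_one]
  exact hd

theorem carter_eq_systemNormalizer {G : Type u} [Group G] [Finite G] [Group.IsSolvable G]
    (F : Subgroup G) [F.Normal] (hF : Group.IsNilpotent F) (hGF : Group.IsNilpotent (G ⧸ F))
    {K : Nat.Primes → Subgroup G} (hK : Cfsg.IsComplementSystem K) {C : Subgroup G}
    (hC : Cfsg.IsCarterSubgroup C) (h : Cfsg.systemNormalizer K ≤ C) :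
    C = Cfsg.systemNormalizer K :=
  le_antisymm (carter_le_systemNormalizer_aux _ G rfl F hF hGF K hK C hC h) h

end Cfsg.Agent.Lib.Helper91
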