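import Mathlib
import Cfsg.Agent.Lib.Helper91.KW2
import Cfsg.Agent.Lib.Helper91.KW3
import Cfsg.Agent.Lib.Helper91.SysNorm
import Cfsg.Agent.Lib.Helper91.SysNorm3
import Cfsg.Agent.Lib.Helper51.Card
import Cfsg.Agent.S0143
import Cfsg.Agent.S0559
import Cfsg.Agent.S0562
import Cfsg.Agent.S0566
import Cfsg.Agent.S0581

/-!
Wielandt's theorem: a finite group which is the product of two nilpotent subgroups of coprime
orders is solvable.  Part 1: a minimal counterexample.
-/

set_option autoImplicit false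

namespace Cfsg.Agent.Lib.Helper91.KW

open Subgroup
open scoped Pointwise

universe u

/-- `G = A B` with `A`, `B` nilpotent of coprime orders. -/
structure Fac {G : Type*} [Group G] (A B : Subgroup G) : Prop where
  nilA : Group.IsNilpotent A
  nilB : Group.IsNilpotent B
  cop : (Nat.card A).Coprime (Nat.card B)
  mul : ∀ g : G, ∃ a ∈ A, ∃ b ∈ B, g = a * b

namespace Fac

variable {G : Type*} [Group G] {A B : Subgroup G}

theorem symm (h : Fac A B) : Fac B A where
  nilA := h.nilB
  nilB := h.nilA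
  cop := h.cop.symm
  mul := by
    intro g
    obtain ⟨a, ha, b, hb, e⟩ := h.mul g⁻¹
    refine ⟨b⁻¹, inv_mem hb, a⁻¹, inv_mem ha, ?_⟩
    rw [← mul_inv_rev, ← e, inv_inv]

theorem card_eq [Finite G] (h : Fac A B) : Nat.card G = Nat.card A * Nat.card B := by
  apply le_antisymm
  · rw [← Nat.card_prod]
    apply Nat.card_le_card_of_surjective (fun x : A × B => (x.1 : G) * (x.2 : G))
    intro g
    obtain ⟨a, ha, b, hb, e⟩ := h.mul g
    exact ⟨(⟨a, ha⟩, ⟨b, hb⟩), e.symm⟩
  · exact Nat.le_of_dvd Nat.card_pos (h.cop.mul_dvd_of_dvd_of_dvd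
      (Subgroup.card_subgroup_dvd_card A) (Subgroup.card_subgroup_dvd_card B))

theorem index_left [Finite G] (h : Fac A B) : A.index = Nat.card B := by
  have h1 := Subgroup.card_mul_index A
  rw [h.card_eq] at h1
  exact Nat.eq_of_mul_eq_mul_left Nat.card_pos h1

theorem hall_left [Finite G] (h : Fac A B) : (Nat.card A).Coprime A.index := by
  rw [h.index_left]
  exact h.cop

theorem inf_eq_bot (h : Fac A B) : A ⊓ B = ⊥ :=
  disjoint_iff.1 (Subgroup.disjoint_of_coprime_natCard h.cop)

theorem unique (h : Fac A B) {a a' b b' : G} (ha : a ∈ A) (ha' : a' ∈ A) (hb : b ∈ B)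
    (hb' : b' ∈ B) (e : a * b = a' * b') : a = a' ∧ b = b' := by
  have h1 : a'⁻¹ * a = b' * b⁻¹ := by
    rw [inv_mul_eq_iff_eq_mul, ← mul_assoc, ← e, mul_inv_cancel_right]
  have h2 : a'⁻¹ * a ∈ A ⊓ B :=
    Subgroup.mem_inf.2 ⟨mul_mem (inv_mem ha') ha, h1 ▸ mul_mem hb' (inv_mem hb)⟩
  rw [h.inf_eq_bot, Subgroup.mem_bot] at h2
  have h3 : a = a' := by rw [inv_mul_eq_one] at h2; exact h2.symm
  subst h3
  exact ⟨rfl, mul_left_cancel e⟩

theorem conj [Finite G] (h : Fac A B) (x y : G) :
    Fac (MulAut.conj x • A) (MulAut.conj y • B) where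
  nilA := isNilpotent_conj h.nilA x
  nilB := isNilpotent_conj h.nilB y
  cop := by
    rw [Cfsg.Agent.Lib.Helper1.card_conj_smul, Cfsg.Agent.Lib.Helper1.card_conj_smul]
    exact h.cop
  mul := (Cfsg.Agent.S0559.result A B _ _ h.mul ⟨x, rfl⟩ ⟨y, rfl⟩).1

theorem conj_right [Finite G] (h : Fac A B) (y : G) : Fac A (MulAut.conj y • B) := by
  have := h.conj 1 y
  rwa [map_one, one_smul] at this

theorem conj_left [Finite G] (h : Fac A B) (x : G) : Fac (MulAut.conj x • A) B := by
  have := h.conj x 1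
  rwa [map_one, one_smul] at this

end Fac

/-- A minimal counterexample to Wielandt's theorem. -/
structure MinCex (G : Type u) [Group G] [Finite G] : Prop where
  not_solv : ¬ Group.IsSolvable G
  ih : ∀ (H : Type u) [Group H] [Finite H], Nat.card H < Nat.card G →
    ∀ A B : Subgroup H, Fac A B → Group.IsSolvable H

namespace MinCex

variable {G : Type u} [Group G] [Finite G] {A B : Subgroup G}

theorem solvable_of_factorized (hG : MinCex G) {L A' B' : Subgroup G} (hL : L ≠ ⊤)
    (hA' : A' ≤ L) (hB' : B' ≤ L) (nA : Group.IsNilpotent A') (nB : Group.IsNilpotent B')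
    (cop : (Nat.card A').Coprime (Nat.card B'))
    (mul : ∀ l ∈ L, ∃ a ∈ A', ∃ b ∈ B', l = a * b) : Group.IsSolvable L :=
  hG.ih L (Cfsg.Agent.Lib.Helper1.card_subgroup_lt_of_ne_top hL) (A'.subgroupOf L)
    (B'.subgroupOf L)
    ⟨isNilpotent_subgroupOf A' L nA, isNilpotent_subgroupOf B' L nB, by
      rw [Cfsg.Agent.Lib.Helper1.card_subgroupOf hA', Cfsg.Agent.Lib.Helper1.card_subgroupOf hB']
      exact cop, fun l => by
      obtain ⟨a, ha, b, hb, e⟩ := mul l l.2
      exact ⟨⟨a, hA' ha⟩, Subgroup.mem_subgroupOf.2 ha, ⟨b, hB' hb⟩,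
        Subgroup.mem_subgroupOf.2 hb, Subtype.ext e⟩⟩

theorem solvable_of_le (hG : MinCex G) (hf : Fac A B) {L : Subgroup G} (hAL : A ≤ L)
    (hL : L ≠ ⊤) : Group.IsSolvable L := by
  apply hG.solvable_of_factorized hL hAL (inf_le_left : L ⊓ B ≤ L) hf.nilA
    (isNilpotent_of_le inf_le_right hf.nilB)
    (Nat.Coprime.coprime_dvd_right (Subgroup.card_dvd_of_le inf_le_right) hf.cop)
  intro l hl
  obtain ⟨a, ha, b, hb, e⟩ := hf.mul l
  refine ⟨a, ha, b, Subgroup.mem_inf.2 ⟨?_, hb⟩, e⟩
  have : b = a⁻¹ * l := by rw [e, inv_mul_cancel_left]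
  rw [this]
  exact mul_mem (inv_mem (hAL ha)) hl

theorem isSimple (hG : MinCex G) (hf : Fac A B) : IsSimpleGroup G := by
  have hnt : Nontrivial G := by
    by_contra h
    rw [not_nontrivial_iff_subsingleton] at h
    exact hG.not_solv inferInstance
  refine ⟨fun N hN => ?_⟩
  by_contra hcon
  push Not at hcon
  obtain ⟨h0, h1⟩ := hcon
  apply hG.not_solv
  have s1 : Group.IsSolvable N := by
    apply hG.ih N (Cfsg.Agent.Lib.Helper1.card_subgroup_lt_of_ne_top h1) (A.subgroupOf N)
      (B.subgroupOf N)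
    refine ⟨isNilpotent_subgroupOf A N hf.nilA, isNilpotent_subgroupOf B N hf.nilB, ?_, ?_⟩
    · exact Nat.Coprime.coprime_dvd_left (Cfsg.Agent.S0006.card_subgroupOf_dvd A N)
        (Nat.Coprime.coprime_dvd_right (Cfsg.Agent.S0006.card_subgroupOf_dvd B N) hf.cop)
    · apply exists_mul_of_coprime_index
      have e1 : (A.subgroupOf N).index ∣ Nat.card B := by
        rw [← hf.index_left]
        exact relIndex_dvd_index_of_normal_right A N
      have e2 : (B.subgroupOf N).index ∣ Nat.card A := by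
        rw [← hf.symm.index_left]
        exact relIndex_dvd_index_of_normal_right B N
      exact Nat.Coprime.coprime_dvd_left e1 (Nat.Coprime.coprime_dvd_right e2 hf.cop.symm)
  have s2 : Group.IsSolvable (G ⧸ N) := by
    apply hG.ih (G ⧸ N) (Cfsg.Agent.Lib.Helper1.card_quotient_lt_of_ne_bot h0)
      (A.map (QuotientGroup.mk' N)) (B.map (QuotientGroup.mk' N))
    refine ⟨isNilpotent_map _ hf.nilA, isNilpotent_map _ hf.nilB, ?_, ?_⟩
    · exact Nat.Coprime.coprime_dvd_left (Subgroup.card_map_dvd _ _)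
        (Nat.Coprime.coprime_dvd_right (Subgroup.card_map_dvd _ _) hf.cop)
    · intro g
      obtain ⟨g', rfl⟩ := QuotientGroup.mk'_surjective N g
      obtain ⟨a, ha, b, hb, e⟩ := hf.mul g'
      exact ⟨_, Subgroup.mem_map_of_mem _ ha, _, Subgroup.mem_map_of_mem _ hb, by
        rw [e, map_mul]⟩
  exact Group.isSolvable_of_ker_le_range N.subtype (QuotientGroup.mk' N)
    (by rw [QuotientGroup.ker_mk', Subgroup.range_subtype])

theorem not_isNilpotent (hG : MinCex G) : ¬ Group.IsNilpotent G := fun _ =>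
  hG.not_solv inferInstance

theorem ne_top (hG : MinCex G) (hf : Fac A B) : A ≠ ⊤ := by
  intro h
  apply hG.not_isNilpotent
  have := hf.nilA
  rw [h] at this
  exact Group.nilpotent_of_mulEquiv (Subgroup.topEquiv (G := G))

/-- nontrivial `q`-subgroups are not normal. -/
theorem normalizer_ne_top (hG : MinCex G) (hf : Fac A B) {q : ℕ} [Fact q.Prime] {Y : Subgroup G}
    (hY : IsPGroup q Y) (hne : Y ≠ ⊥) : normalizer (Y : Set G) ≠ ⊤ := by
  intro h
  have := hG.isSimple hf
  have hn : Y.Normal := Subgroup.normalizer_eq_top_iff.1 h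
  rcases hn.eq_bot_or_eq_top with h1 | h1
  · exact hne h1
  · apply hG.not_isNilpotent
    rw [h1] at hY
    have : IsPGroup q G := hY.of_equiv (Subgroup.topEquiv (G := G))
    exact this.isNilpotent

theorem centralizer_ne_top (hG : MinCex G) (hf : Fac A B) {x : G} (hx : x ≠ 1) :
    centralizer ({x} : Set G) ≠ ⊤ := by
  intro h
  have := hG.isSimple hf
  have hxc : x ∈ Subgroup.center G := by
    rw [Subgroup.mem_center_iff]
    intro g
    exact Subgroup.mem_centralizer_singleton_iff.1 (h ▸ Subgroup.mem_top g)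
  rcases (inferInstance : (Subgroup.center G).Normal).eq_bot_or_eq_top with h1 | h1
  · rw [h1, Subgroup.mem_bot] at hxc
    exact hx hxc
  · apply hG.not_solv
    apply Group.isSolvable_of_comm
    intro a b
    exact (Subgroup.mem_center_iff.1 (h1 ▸ Subgroup.mem_top b) a)

theorem two_primes (hG : MinCex G) (hf : Fac A B) (p : ℕ) (hp : p.Prime) :
    ∃ s : ℕ, s.Prime ∧ s ≠ p ∧ s ∣ Nat.card A := by
  by_contra h
  push Not at h
  have hcard : Nat.card A = p ^ (Nat.card A).primeFactorsList.length := by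
    apply Nat.eq_prime_pow_of_unique_prime_dvd Nat.card_pos.ne'
    intro d hd hdA
    by_contra hdp
    exact h d hd hdp hdA
  have hB : B ≠ ⊥ := by
    intro hB
    apply hG.ne_top hf
    rw [eq_top_iff]
    intro g _
    obtain ⟨a, ha, b, hb, e⟩ := hf.mul g
    rw [hB, Subgroup.mem_bot] at hb
    rw [e, hb, mul_one]
    exact ha
  obtain ⟨z, hzB, hz1, hzc⟩ := exists_central_of_normal_in_nilpotent hf.nilB le_rfl
    Subgroup.le_normalizer hB
  have hle : B ≤ centralizer ({z} : Set G) := by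
    intro b hb
    rw [Subgroup.mem_centralizer_singleton_iff]
    exact hzc b hb
  have hidx : (centralizer ({z} : Set G)).index ∣ p ^ (Nat.card A).primeFactorsList.length := by
    rw [← hcard, ← hf.symm.index_left]
    exact Subgroup.index_dvd_of_le hle
  obtain ⟨j, -, hj⟩ := (Nat.dvd_prime_pow hp).1 hidx
  have := hG.isSimple hf
  have hprime := Cfsg.Agent.S0143.result p j hp z hz1 hj
  apply hG.not_solv
  have : Fact (Nat.card G).Prime := ⟨hprime⟩
  have hcyc : IsCyclic G := isCyclic_of_prime_card rfl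
  apply Group.isSolvable_of_comm
  intro a b
  exact hcyc.isMulCommutative.is_comm.comm a b

end MinCex

end Cfsg.Agent.Lib.Helper91.KW
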