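import Mathlib
import Cfsg.Agent.Lib.Helper91.KW4

/-!
Wielandt's theorem, part 2: generation by Sylow subgroups of the factors, no invariant
`q`-subgroups, `N_G(A)` is the unique maximal subgroup over `A`.
-/

set_option autoImplicit false

namespace Cfsg.Agent.Lib.Helper91.KW

open Subgroup
open scoped Pointwise

universe u

namespace MinCex

variable {G : Type u} [Group G] [Finite G] {A B : Subgroup G}

theorem conj_mem_of_mem_normalizer {X : Subgroup G} {a x : G}
    (ha : a ∈ normalizer (X : Set G)) (hx : x ∈ X) : a * x * a⁻¹ ∈ X :=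
  (Subgroup.mem_normalizer_iff.1 ha x).1 hx

theorem conj_mem_of_mem_normalizer' {X : Subgroup G} {a x : G}
    (ha : a ∈ normalizer (X : Set G)) (hx : x ∈ X) : a⁻¹ * x * a ∈ X := by
  have := conj_mem_of_mem_normalizer (inv_mem ha) hx
  rwa [inv_inv] at this

theorem coprime_card_syl_relIndex (hf : Fac A B) {p : ℕ} [Fact p.Prime] (hp : p ∣ Nat.card A)
    {L : Subgroup G} (hL : syl A p ≤ L) : (Nat.card (syl A p)).Coprime ((syl A p).relIndex L) := by
  obtain ⟨k, hk⟩ := IsPGroup.iff_card.1 (syl_isPGroup (A := A) (p := p))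
  rw [hk]
  apply Nat.Coprime.pow_left
  rw [Nat.Prime.coprime_iff_not_dvd Fact.out]
  intro hd
  exact syl_not_dvd_index hf.hall_left hp (hd.trans (Subgroup.relIndex_dvd_index_of_le hL))

/-- `⟨A_p, B_q⟩ = G`. -/
theorem sup_syl_eq_top (hG : MinCex G) (hf : Fac A B) {p q : ℕ} [Fact p.Prime] [Fact q.Prime]
    (hp : p ∣ Nat.card A) (hq : q ∣ Nat.card B) : syl A p ⊔ syl B q = ⊤ := by
  by_contra hne
  have hsimple := hG.isSimple hf
  set X := syl A p with hX
  set Y := syl B q with hY
  have hXne : X ≠ ⊥ := syl_ne_bot hp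
  have hYne : Y ≠ ⊥ := syl_ne_bot hq
  have hAX : A ≤ normalizer (X : Set G) := le_normalizer_syl hf.nilA
  have hBY : B ≤ normalizer (Y : Set G) := le_normalizer_syl hf.nilB
  set L := normalizer ((X ⊔ Y : Subgroup G) : Set G) with hL
  have hLtop : L ≠ ⊤ := by
    intro h
    have hn : (X ⊔ Y).Normal := Subgroup.normalizer_eq_top_iff.1 h
    rcases hn.eq_bot_or_eq_top with h1 | h1
    · exact hXne (le_bot_iff.1 (h1 ▸ le_sup_left))
    · exact hne h1
  have hXL : X ≤ L := le_sup_left.trans Subgroup.le_normalizer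
  have hYL : Y ≤ L := le_sup_right.trans Subgroup.le_normalizer
  have hfac := Cfsg.Agent.S0562.result A B X Y hf.mul syl_le
    ((Subgroup.normal_subgroupOf_iff_le_normalizer syl_le).2 hAX) syl_le
    ((Subgroup.normal_subgroupOf_iff_le_normalizer syl_le).2 hBY)
  have hsolv : Group.IsSolvable L :=
    hG.solvable_of_factorized hLtop inf_le_left inf_le_left
      (isNilpotent_of_le inf_le_right hf.nilA) (isNilpotent_of_le inf_le_right hf.nilB)
      (Nat.Coprime.coprime_dvd_left (Subgroup.card_dvd_of_le inf_le_right)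
        (Nat.Coprime.coprime_dvd_right (Subgroup.card_dvd_of_le inf_le_right) hf.cop)) hfac
  obtain ⟨S, hSL, hS⟩ := perm_of_solvable_factorized L (L ⊓ A) (L ⊓ B) X Y hsolv inf_le_left
    inf_le_left hfac (le_inf hXL syl_le) (inf_le_right.trans hAX) (le_inf hYL syl_le)
    (inf_le_right.trans hBY) (coprime_card_syl_relIndex hf hp hXL)
    (coprime_card_syl_relIndex hf.symm hq hYL)
  obtain ⟨N, hNn, hNtop, hor⟩ := Cfsg.Agent.S0566.result X Y hXne hYne (by
    intro x
    obtain ⟨a, ha, b, hb, rfl⟩ := hf.mul x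
    refine ⟨MulAut.conj a • S, ?_, ?_⟩
    · intro h
      have h1 : Nat.card (MulAut.conj a • S : Subgroup G) = Nat.card G := by
        rw [h, Subgroup.card_top]
      rw [Cfsg.Agent.Lib.Helper1.card_conj_smul] at h1
      have h2 : Nat.card S ≤ Nat.card L := Subgroup.card_le_of_le hSL
      have h3 := Cfsg.Agent.Lib.Helper1.card_subgroup_lt_of_ne_top hLtop
      omega
    · ext g
      rw [SetLike.mem_coe, Cfsg.Agent.Lib.Helper1.mem_conj_smul_iff, ← SetLike.mem_coe, hS,
        Set.mem_mul, Set.mem_mul]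
      constructor
      · rintro ⟨x, hx, y, hy, e⟩
        refine ⟨a * x * a⁻¹, conj_mem_of_mem_normalizer (hAX ha) hx, a * y * a⁻¹, ?_, ?_⟩
        · rw [SetLike.mem_coe, Cfsg.Agent.Lib.Helper1.mem_conj_smul_iff]
          have e2 : (a * b)⁻¹ * (a * y * a⁻¹) * (a * b) = b⁻¹ * y * b := by group
          rw [e2]
          exact conj_mem_of_mem_normalizer' (hBY hb) hy
        · calc a * x * a⁻¹ * (a * y * a⁻¹) = a * (x * y) * a⁻¹ := by group
            _ = g := by rw [e]; group
      · rintro ⟨x, hx, y, hy, e⟩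
        rw [SetLike.mem_coe, Cfsg.Agent.Lib.Helper1.mem_conj_smul_iff] at hy
        refine ⟨a⁻¹ * x * a, conj_mem_of_mem_normalizer' (hAX ha) hx, a⁻¹ * y * a, ?_, ?_⟩
        · have e2 : a⁻¹ * y * a = b * ((a * b)⁻¹ * y * (a * b)) * b⁻¹ := by group
          rw [e2]
          exact conj_mem_of_mem_normalizer (hBY hb) hy
        · rw [← e]
          group)
  rcases hNn.eq_bot_or_eq_top with h1 | h1
  · rcases hor with h | h
    · exact hXne (le_bot_iff.1 (h1 ▸ h))
    · exact hYne (le_bot_iff.1 (h1 ▸ h))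
  · exact hNtop h1

/-- No nontrivial `q`-subgroup (`q ∤ |A|`) is normalized by a Sylow subgroup of `A`. -/
theorem no_invariant (hG : MinCex G) (hf : Fac A B) {r q : ℕ} [Fact r.Prime] [Fact q.Prime]
    (hr : r ∣ Nat.card A) (hq : ¬ q ∣ Nat.card A) {Y : Subgroup G} (hY : IsPGroup q Y)
    (hn : syl A r ≤ normalizer (Y : Set G)) : Y = ⊥ := by
  by_contra hne
  obtain ⟨k, hk⟩ := IsPGroup.iff_card.1 hY
  have hk0 : k ≠ 0 := by
    rintro rfl
    rw [pow_zero] at hk
    exact hne (Subgroup.card_eq_one.1 hk)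
  have hqB : q ∣ Nat.card B := by
    have h1 : q ∣ Nat.card G :=
      (dvd_pow_self q hk0).trans (hk ▸ Subgroup.card_subgroup_dvd_card Y)
    rw [hf.card_eq] at h1
    rcases (Nat.Prime.dvd_mul Fact.out).1 h1 with h | h
    · exact absurd h hq
    · exact h
  obtain ⟨x, hx⟩ := Cfsg.Agent.S0581.result B Y hf.nilB hf.symm.hall_left (by
    intro p hp hpY
    rw [hk] at hpY
    rw [(Nat.prime_dvd_prime_iff_eq hp Fact.out).1 (hp.dvd_of_dvd_pow hpY)]
    exact hqB)
  have hf₁ : Fac A (MulAut.conj x • B) := hf.conj_right x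
  obtain ⟨s, hs, hsq, hsB⟩ := hG.two_primes hf₁.symm q Fact.out
  have : Fact s.Prime := ⟨hs⟩
  have h1 : syl (MulAut.conj x • B) s ≤ normalizer (Y : Set G) := by
    refine le_trans ?_ (Subgroup.centralizer_le_normalizer _)
    intro z hz
    rw [Subgroup.mem_centralizer_iff]
    intro y hy
    exact syl_commute hf₁.nilB hsq.symm y (le_syl hf₁.nilB hx hY hy) z hz
  have h2 := hG.sup_syl_eq_top hf₁ hr hsB
  apply hG.normalizer_ne_top hf hY hne
  rw [eq_top_iff, ← h2]
  exact sup_le hn h1

/-- **(U)** every proper subgroup containing `A` normalizes `A`. -/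
theorem le_normalizer_of_le (hG : MinCex G) (hf : Fac A B) {L : Subgroup G} (hAL : A ≤ L)
    (hL : L ≠ ⊤) : L ≤ normalizer (A : Set G) := by
  have hsolv := hG.solvable_of_le hf hAL hL
  have hcard : Nat.card (A.subgroupOf L) = Nat.card A :=
    Cfsg.Agent.Lib.Helper1.card_subgroupOf hAL
  rw [← Subgroup.normal_subgroupOf_iff_le_normalizer hAL]
  apply normal_of_nilpotent_hall (isNilpotent_subgroupOf A L hf.nilA)
  · rw [hcard]
    exact Nat.Coprime.coprime_dvd_right (Subgroup.relIndex_dvd_index_of_le hAL) hf.hall_left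
  · rw [hcard]
    exact hG.two_primes hf
  · intro r q _ _ hr hq Y hY hn
    rw [hcard] at hr hq
    have h1 : Y.map L.subtype = ⊥ := by
      apply hG.no_invariant hf hr hq (hY.map _)
      rw [← syl_map_subtype hAL hf.nilA r]
      exact (Subgroup.map_mono hn).trans (Subgroup.le_normalizer_map _)
    exact (Subgroup.map_eq_bot_iff_of_injective _ L.subtype_injective).1 h1

end MinCex

end Cfsg.Agent.Lib.Helper91.KW
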