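import Mathlib
import Cfsg.Agent.Lib.Helper91.KW5

/-!
Wielandt's theorem, part 3: centralizers of elements of `A` lie in `N_G(A)`; `A` is a TI-subgroup;
final contradiction.
-/

set_option autoImplicit false

namespace Cfsg.Agent.Lib.Helper91.KW

open Subgroup Cfsg
open scoped Pointwise

universe u

namespace MinCex

variable {G : Type u} [Group G] [Finite G] {A B : Subgroup G}

theorem isPGroup_zpowers {x : G} {p : ℕ} (ho : orderOf x = p) : IsPGroup p (zpowers x) := by
  apply IsPGroup.of_card (n := 1)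
  rw [Nat.card_zpowers, ho, pow_one]

/-- **Lemma T.** -/
theorem eq_of_mem_inf (hG : MinCex G) {A₁ B₁ A₂ B₂ : Subgroup G} (hf₁ : Fac A₁ B₁)
    (hf₂ : Fac A₂ B₂) (hcard : Nat.card A₁ = Nat.card A₂) {x : G} {p : ℕ} [Fact p.Prime]
    (hx2 : x ∈ A₂) (hxp : IsPGroup p (zpowers x))
    (hc : centralizer ({x} : Set G) ≤ normalizer (A₁ : Set G)) : A₂ = A₁ := by
  obtain ⟨s, hs, hsp, hsA⟩ := hG.two_primes hf₂ p Fact.out
  have : Fact s.Prime := ⟨hs⟩
  have h1 : syl A₂ s ≤ centralizer ({x} : Set G) := by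
    intro y hy
    rw [Subgroup.mem_centralizer_singleton_iff]
    exact syl_commute hf₂.nilA hsp y hy x
      (le_syl hf₂.nilA (by rwa [Subgroup.zpowers_le]) hxp (Subgroup.mem_zpowers x))
  have h2 : syl A₂ s ≤ A₁ := by
    apply le_of_le_normalizer_of_coprime (h1.trans hc)
    exact Nat.Coprime.coprime_dvd_left (hcard ▸ Subgroup.card_dvd_of_le syl_le) hf₁.hall_left
  have h3 : syl A₁ s = syl A₂ s :=
    eq_syl_of_le hf₂.hall_left hsA syl_isPGroup (le_syl hf₁.nilA h2 syl_isPGroup)
  have h4 : normalizer (syl A₁ s : Set G) ≤ normalizer (A₁ : Set G) :=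
    hG.le_normalizer_of_le hf₁ (le_normalizer_syl hf₁.nilA)
      (hG.normalizer_ne_top hf₁ syl_isPGroup (syl_ne_bot (hcard ▸ hsA)))
  have h5 : A₂ ≤ normalizer (A₁ : Set G) := by
    refine le_trans ?_ h4
    rw [h3]
    exact le_normalizer_syl hf₂.nilA
  have h6 : A₂ ≤ A₁ := le_of_le_normalizer_of_coprime h5 (hcard ▸ hf₁.hall_left)
  exact Subgroup.eq_of_le_of_card_ge h6 hcard.le

/-- an `r`-subgroup and an `s`-subgroup (`r ≠ s` dividing `|A|`) one normalizing the other
commute. -/
theorem commute_of_normalizes (hf : Fac A B) {r s : ℕ} [Fact r.Prime] [Fact s.Prime]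
    (hr : r ∣ Nat.card A) (hs : s ∣ Nat.card A) (hrs : r ≠ s) {R S : Subgroup G}
    (hR : IsPGroup r R) (hS : IsPGroup s S) (hn : S ≤ normalizer (R : Set G)) :
    ∀ a ∈ R, ∀ b ∈ S, a * b = b * a := by
  obtain ⟨u, hu⟩ := Cfsg.Agent.S0581.result A (S ⊔ R) hf.nilA hf.hall_left (by
    intro p hp hpd
    have h1 := hpd.trans (Cfsg.Agent.Lib.Helper1.card_sup_dvd hn)
    obtain ⟨i, hi⟩ := IsPGroup.iff_card.1 hR
    obtain ⟨j, hj⟩ := IsPGroup.iff_card.1 hS
    rw [hi, hj] at h1
    rcases (Nat.Prime.dvd_mul hp).1 h1 with h | h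
    · rw [(Nat.prime_dvd_prime_iff_eq hp Fact.out).1 (hp.dvd_of_dvd_pow h)]
      exact hs
    · rw [(Nat.prime_dvd_prime_iff_eq hp Fact.out).1 (hp.dvd_of_dvd_pow h)]
      exact hr)
  exact Cfsg.Agent.Lib.Helper9.commute_of_nilpotent_of_pgroups hrs (isNilpotent_conj hf.nilA u)
    (le_sup_right.trans hu) (le_sup_left.trans hu) hR hS

/-- **Lemma I.** -/
theorem centralizer_le_of_normalizes (hG : MinCex G) (hf : Fac A B) {x : G} {p : ℕ}
    [Fact p.Prime] (hxA : x ∈ A) (ho : orderOf x = p) (hxB : x ∈ normalizer (B : Set G)) :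
    centralizer ({x} : Set G) ≤ normalizer (A : Set G) := by
  set H := centralizer ({x} : Set G) with hH
  have hx1 : x ≠ 1 := by
    rintro rfl
    rw [orderOf_one] at ho
    exact (Fact.out : p.Prime).one_lt.ne ho
  have hHtop : H ≠ ⊤ := hG.centralizer_ne_top hf hx1
  have hfac : ∀ g ∈ H, ∃ a ∈ H ⊓ A, ∃ b ∈ H ⊓ B, g = a * b := by
    intro g hg
    obtain ⟨a, ha, b, hb, e⟩ := hf.mul g
    have hgx : g * x = x * g := Subgroup.mem_centralizer_singleton_iff.1 hg
    have e2 : x * a * x⁻¹ * (x * b * x⁻¹) = a * b := by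
      calc x * a * x⁻¹ * (x * b * x⁻¹) = x * (a * b) * x⁻¹ := by group
        _ = a * b := by rw [← e, ← hgx, mul_inv_cancel_right]
    obtain ⟨e3, e4⟩ := hf.unique (mul_mem (mul_mem hxA ha) (inv_mem hxA)) ha
      (conj_mem_of_mem_normalizer hxB hb) hb e2
    refine ⟨a, Subgroup.mem_inf.2 ⟨?_, ha⟩, b, Subgroup.mem_inf.2 ⟨?_, hb⟩, e⟩
    · rw [hH, Subgroup.mem_centralizer_singleton_iff]
      rw [mul_inv_eq_iff_eq_mul] at e3
      exact e3.symm
    · rw [hH, Subgroup.mem_centralizer_singleton_iff]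
      rw [mul_inv_eq_iff_eq_mul] at e4
      exact e4.symm
  have hsolv : Group.IsSolvable H :=
    hG.solvable_of_factorized hHtop inf_le_left inf_le_left
      (isNilpotent_of_le inf_le_right hf.nilA) (isNilpotent_of_le inf_le_right hf.nilB)
      (Nat.Coprime.coprime_dvd_left (Subgroup.card_dvd_of_le inf_le_right)
        (Nat.Coprime.coprime_dvd_right (Subgroup.card_dvd_of_le inf_le_right) hf.cop)) hfac
  obtain ⟨s, hs, hsp, hsA⟩ := hG.two_primes hf p Fact.out
  have : Fact s.Prime := ⟨hs⟩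
  set S := syl A s with hS
  have hSH : S ≤ H := by
    intro y hy
    rw [hH, Subgroup.mem_centralizer_singleton_iff]
    exact syl_commute hf.nilA hsp y hy x (mem_syl hf.nilA hxA ho)
  have hSne : S ≠ ⊥ := syl_ne_bot hsA
  -- normality in `H` of images of cores
  have hcore_norm : ∀ r : ℕ, H ≤ normalizer (((pCore r H).map H.subtype : Subgroup G) : Set G) := by
    intro r
    rw [← Subgroup.normal_subgroupOf_iff_le_normalizer (Subgroup.map_subtype_le _)]
    have e : ((pCore r H).map H.subtype).subgroupOf H = pCore r H :=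
      Subgroup.comap_map_eq_self_of_injective H.subtype_injective _
    rw [e]
    exact Cfsg.Agent.Lib.Helper1.pCore_normal r
  have hT' : pCore s H ≠ ⊥ := by
    apply pCore_ne_bot_of_centralizes (S := S.subgroupOf H) (syl_isPGroup.comap_subtype)
    · intro h
      rw [Subgroup.subgroupOf_eq_bot, disjoint_iff, inf_eq_left.2 hSH] at h
      exact hSne h
    · intro r hr hrs
      have : Fact r.Prime := ⟨hr⟩
      have hRp : IsPGroup r ((pCore r H).map H.subtype) :=
        (Cfsg.Agent.Lib.Helper1.pCore_isPGroup r).map _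
      by_cases hrA : r ∣ Nat.card A
      · have hcomm := commute_of_normalizes hf hrA hsA hrs hRp syl_isPGroup
          (hSH.trans (hcore_norm r))
        intro y hy
        rw [Subgroup.mem_centralizer_iff]
        intro z hz
        apply Subtype.ext
        exact hcomm z (Subgroup.mem_map_of_mem _ hz) y (Subgroup.mem_subgroupOf.1 hy)
      · have h0 := hG.no_invariant hf hsA hrA hRp (hSH.trans (hcore_norm r))
        rw [Subgroup.map_eq_bot_iff_of_injective _ H.subtype_injective] at h0
        rw [h0]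
        intro y _
        rw [Subgroup.mem_centralizer_iff]
        intro z hz
        have hz1 : z = 1 := Subgroup.mem_bot.1 hz
        rw [hz1, one_mul, mul_one]
  set T := (pCore s H).map H.subtype with hT
  have hTne : T ≠ ⊥ := by
    intro h
    exact hT' ((Subgroup.map_eq_bot_iff_of_injective _ H.subtype_injective).1 h)
  have hTp : IsPGroup s T := (Cfsg.Agent.Lib.Helper1.pCore_isPGroup s).map _
  have hTS : T ≤ S := by
    have h1 : IsPGroup s (S ⊔ T : Subgroup G) :=
      IsPGroup.to_sup_of_normal_right' syl_isPGroup hTp (hSH.trans (hcore_norm s))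
    have h2 := eq_syl_of_le hf.hall_left hsA h1 le_sup_left
    calc T ≤ S ⊔ T := le_sup_right
      _ = S := h2
  have hAT : A ≤ normalizer (T : Set G) := by
    apply le_of_forall_syl_le
    intro q _
    by_cases hqs : q = s
    · subst hqs
      exact hSH.trans (hcore_norm q)
    · refine le_trans ?_ (Subgroup.centralizer_le_normalizer _)
      intro y hy
      rw [Subgroup.mem_centralizer_iff]
      intro z hz
      exact syl_commute hf.nilA (Ne.symm hqs) z (hTS hz) y hy
  exact (hcore_norm s).trans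
    (hG.le_normalizer_of_le hf hAT (hG.normalizer_ne_top hf hTp hTne))

end MinCex

end Cfsg.Agent.Lib.Helper91.KW
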