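import Mathlib
import Cfsg.Agent.Lib.Helper91.KW6

/-!
Wielandt's theorem, part 4: `C_G(x) ≤ N_G(A)` for all `x ∈ A` of prime order, `A` is TI, the end.
-/

set_option autoImplicit false

namespace Cfsg.Agent.Lib.Helper91.KW

open Subgroup Cfsg
open scoped Pointwise

universe u

theorem exists_mem_orderOf_eq {G : Type*} [Group G] [Finite G] {D : Subgroup G} {k : ℕ}
    [Fact k.Prime] (h : k ∣ Nat.card D) : ∃ x ∈ D, orderOf x = k := by
  obtain ⟨x, hx⟩ := exists_prime_orderOf_dvd_card' (G := D) k h
  exact ⟨x, x.2, by rw [Subgroup.orderOf_coe]; exact hx⟩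

namespace MinCex

variable {G : Type u} [Group G] [Finite G] {A B : Subgroup G}

/-- **Lemma II.** -/
theorem centralizer_le (hG : MinCex G) (hf : Fac A B) {x : G} {p : ℕ}
    [Fact p.Prime] (hxA : x ∈ A) (ho : orderOf x = p) :
    centralizer ({x} : Set G) ≤ normalizer (A : Set G) := by
  set H := centralizer ({x} : Set G) with hH
  set M := normalizer (A : Set G) with hM
  by_cases hex : ∃ e ∈ H ⊓ M, ∃ q : ℕ, q.Prime ∧ orderOf e = q ∧ ¬ q ∣ Nat.card A
  · obtain ⟨e, he, q, hq, hoe, hqA⟩ := hex
    have : Fact q.Prime := ⟨hq⟩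
    obtain ⟨heH, heM⟩ := Subgroup.mem_inf.1 he
    have hqB : q ∣ Nat.card B := by
      have h1 : q ∣ Nat.card G := hoe ▸ orderOf_dvd_natCard e
      rw [hf.card_eq] at h1
      rcases (Nat.Prime.dvd_mul hq).1 h1 with h | h
      · exact absurd h hqA
      · exact h
    obtain ⟨u, hu⟩ := Cfsg.Agent.S0581.result B (zpowers e) hf.nilB hf.symm.hall_left (by
      intro r hr hrd
      rw [Nat.card_zpowers, hoe] at hrd
      rw [(Nat.prime_dvd_prime_iff_eq hr hq).1 hrd]
      exact hqB)
    have hf₁ : Fac A (MulAut.conj u • B) := hf.conj_right u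
    have heB : e ∈ MulAut.conj u • B := hu (Subgroup.mem_zpowers e)
    have h1 := hG.centralizer_le_of_normalizes hf₁.symm heB hoe heM
    have hxe : x ∈ centralizer ({e} : Set G) := by
      rw [Subgroup.mem_centralizer_singleton_iff]
      exact (Subgroup.mem_centralizer_singleton_iff.1 heH).symm
    exact hG.centralizer_le_of_normalizes hf₁ hxA ho (h1 hxe)
  · push Not at hex
    have hHM : H ⊓ M ≤ A := by
      apply le_of_le_normalizer_of_coprime inf_le_right
      apply Nat.coprime_of_dvd
      intro k hk hk1 hk2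
      have : Fact k.Prime := ⟨hk⟩
      obtain ⟨e, he, hoe⟩ := exists_mem_orderOf_eq hk1
      have := hex e he k hk hoe
      exact hk.one_lt.ne' (Nat.eq_one_of_dvd_coprimes hf.hall_left this hk2)
    set H₀ := H ⊓ A with hH₀
    have hnil₀ : Group.IsNilpotent H₀ := isNilpotent_of_le inf_le_right hf.nilA
    have hxH : x ∈ H := by
      rw [hH, Subgroup.mem_centralizer_singleton_iff]
    have hpH₀ : p ∣ Nat.card H₀ := ho ▸ H₀.orderOf_dvd_natCard (Subgroup.mem_inf.2 ⟨hxH, hxA⟩)
    obtain ⟨s, hs, hsp, hsA⟩ := hG.two_primes hf p Fact.out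
    have : Fact s.Prime := ⟨hs⟩
    have hsylH : ∀ (r : ℕ) [Fact r.Prime], r ≠ p → syl A r ≤ H₀ := by
      intro r _ hrp
      refine le_inf ?_ syl_le
      intro y hy
      rw [hH, Subgroup.mem_centralizer_singleton_iff]
      exact syl_commute hf.nilA hrp y hy x (mem_syl hf.nilA hxA ho)
    have hdvd_syl : ∀ (r : ℕ) [Fact r.Prime], r ∣ Nat.card A → r ∣ Nat.card (syl A r) := by
      intro r _ hr
      obtain ⟨k, hk⟩ := IsPGroup.iff_card.1 (syl_isPGroup (A := A) (p := r))
      have hk0 : k ≠ 0 := by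
        rintro rfl
        rw [pow_zero] at hk
        exact syl_ne_bot hr (Subgroup.card_eq_one.1 hk)
      rw [hk]
      exact dvd_pow_self r hk0
    have hsH₀ : s ∣ Nat.card H₀ := (hdvd_syl s hsA).trans (Subgroup.card_dvd_of_le (hsylH s hsp))
    have hnorm : ∀ (r : ℕ) [Fact r.Prime], r ∣ Nat.card H₀ →
        H ⊓ normalizer (syl H₀ r : Set G) ≤ H₀ := by
      intro r _ hr n hn
      obtain ⟨hnH, hnN⟩ := Subgroup.mem_inf.1 hn
      have hrA : r ∣ Nat.card A := hr.trans (Subgroup.card_dvd_of_le inf_le_right)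
      suffices hnM : n ∈ M from
        Subgroup.mem_inf.2 ⟨hnH, hHM (Subgroup.mem_inf.2 ⟨hnH, hnM⟩)⟩
      by_cases hrp : r = p
      · subst hrp
        obtain ⟨z, hzS, hz1, hzc⟩ := exists_central_of_normal_in_nilpotent hf.nilA
          (syl_le (A := A) (p := r)) (le_normalizer_syl hf.nilA) (syl_ne_bot hrA)
        have hzA : z ∈ A := syl_le hzS
        have hzp : IsPGroup r (zpowers z) :=
          (syl_isPGroup (A := A) (p := r)).to_le (by rwa [Subgroup.zpowers_le])
        have hzH₀ : z ∈ H₀ := by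
          refine Subgroup.mem_inf.2 ⟨?_, hzA⟩
          rw [hH, Subgroup.mem_centralizer_singleton_iff]
          exact (hzc x hxA).symm
        have hzP : z ∈ syl H₀ r :=
          le_syl hnil₀ (by rwa [Subgroup.zpowers_le]) hzp (Subgroup.mem_zpowers z)
        have h1 : n * z * n⁻¹ ∈ A :=
          (Subgroup.mem_inf.1 (syl_le (conj_mem_of_mem_normalizer hnN hzP))).2
        have h2 : z ∈ MulAut.conj n⁻¹ • A := by
          rw [Cfsg.Agent.Lib.Helper1.mem_conj_smul_iff, inv_inv]
          exact h1
        have hc : centralizer ({z} : Set G) ≤ normalizer (A : Set G) := by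
          apply hG.le_normalizer_of_le hf _ (hG.centralizer_ne_top hf hz1)
          intro a ha
          rw [Subgroup.mem_centralizer_singleton_iff]
          exact hzc a ha
        have h3 := hG.eq_of_mem_inf hf (hf.conj_left n⁻¹)
          (Cfsg.Agent.Lib.Helper1.card_conj_smul n⁻¹ A).symm h2 hzp hc
        have h4 : n⁻¹ ∈ M := Cfsg.Agent.Lib.Helper1.mem_normalizer_iff_conj_smul.2 h3
        have := inv_mem h4
        rwa [inv_inv] at this
      · have e : syl A r = syl H₀ r := by
          apply syl_eq hnil₀ (hsylH r hrp) syl_isPGroup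
          intro hd
          apply syl_not_dvd_relIndex (A := A) (p := r)
          rw [← Subgroup.relIndex_mul_relIndex _ _ _ (hsylH r hrp) (inf_le_right : H₀ ≤ A)]
          exact hd.mul_right _
        rw [← e] at hnN
        exact hG.le_normalizer_of_le hf (le_normalizer_syl hf.nilA)
          (hG.normalizer_ne_top hf syl_isPGroup (syl_ne_bot hrA)) hnN
    obtain ⟨K, hKH, hHK, hdisj, hsup⟩ := exists_normal_complement_rel H H₀ inf_le_left hnil₀
      (Fact.out : p.Prime) hs hsp.symm hpH₀ hsH₀ hnorm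
    set S := syl A s with hS
    have hSH₀ : S ≤ H₀ := hsylH s hsp
    have hSK : S ≤ normalizer (K : Set G) := (hSH₀.trans inf_le_left).trans hHK
    have hSKd : Disjoint S K := by
      rw [disjoint_iff, eq_bot_iff, ← hdisj]
      exact le_inf inf_le_right (inf_le_left.trans hSH₀)
    have hsK : ¬ s ∣ Nat.card K := by
      intro hd
      apply syl_not_dvd_index hf.hall_left hsA
      have h1 := Cfsg.Agent.Lib.Helper1.card_sup_of_disjoint hSK hSKd
      have h2 := Cfsg.Agent.Lib.Helper1.relIndex_mul_card (le_sup_left : S ≤ S ⊔ K)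
      rw [h1, mul_comm] at h2
      have h3 : S.relIndex (S ⊔ K) = Nat.card K := Nat.eq_of_mul_eq_mul_left Nat.card_pos h2
      exact (h3 ▸ hd).trans (Subgroup.relIndex_dvd_index_of_le le_sup_left)
    have hcop : (Nat.card S).Coprime (Nat.card K) := by
      obtain ⟨k, hk⟩ := IsPGroup.iff_card.1 (syl_isPGroup (A := A) (p := s))
      rw [hk]
      exact Nat.Coprime.pow_left k ((Nat.Prime.coprime_iff_not_dvd hs).2 hsK)
    have hK : K = ⊥ := by
      rw [← Subgroup.card_eq_one, Nat.eq_one_iff_not_exists_prime_dvd]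
      intro q hq hqK
      have : Fact q.Prime := ⟨hq⟩
      have hSsolv : Group.IsSolvable S := by
        have := (syl_isPGroup (A := A) (p := s)).isNilpotent
        infer_instance
      obtain ⟨Q, hQK, hQp, hQi, hQn⟩ := Cfsg.Agent.Lib.Helper1.exists_invariant_sylow S K hSK hcop
        (Or.inl hSsolv) q
      have hQne : Q ≠ ⊥ := by
        rintro rfl
        rw [Subgroup.relIndex_bot_left] at hQi
        exact hQi hqK
      by_cases hqA : q ∣ Nat.card A
      · have hqs : q ≠ s := by
          rintro rfl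
          exact hsK hqK
        have hcomm := commute_of_normalizes hf hqA hsA hqs hQp syl_isPGroup hQn
        have h1 : Q ≤ normalizer (S : Set G) := by
          refine le_trans ?_ (Subgroup.centralizer_le_normalizer _)
          intro y hy
          rw [Subgroup.mem_centralizer_iff]
          intro z hz
          exact (hcomm y hy z hz).symm
        have h2 : Q ≤ M := h1.trans (hG.le_normalizer_of_le hf (le_normalizer_syl hf.nilA)
          (hG.normalizer_ne_top hf syl_isPGroup (syl_ne_bot hsA)))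
        have h3 : Q ≤ H₀ := le_inf (hQK.trans hKH) ((le_inf (hQK.trans hKH) h2).trans hHM)
        exact hQne (le_bot_iff.1 (hdisj ▸ le_inf hQK h3))
      · exact hQne (hG.no_invariant hf hsA hqA hQp hQn)
    rw [hK, bot_sup_eq] at hsup
    rw [← hsup]
    exact inf_le_right.trans Subgroup.le_normalizer

theorem card_le (hG : MinCex G) (hf : Fac A B) : Nat.card A ≤ Nat.card B := by
  have hsimple := hG.isSimple hf
  have hAne : A ≠ ⊥ := by
    intro h
    obtain ⟨s, hs, -, hsA⟩ := hG.two_primes hf 2 Nat.prime_two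
    rw [h, Subgroup.card_bot] at hsA
    exact hs.one_lt.ne' (Nat.dvd_one.1 hsA)
  have hN : normalizer (A : Set G) ≠ ⊤ := by
    intro h
    have hn : A.Normal := Subgroup.normalizer_eq_top_iff.1 h
    rcases hn.eq_bot_or_eq_top with h1 | h1
    · exact hAne h1
    · exact hG.ne_top hf h1
  obtain ⟨g, hg⟩ : ∃ g : G, g ∉ normalizer (A : Set G) := by
    by_contra h
    push Not at h
    exact hN (eq_top_iff.2 fun g _ => h g)
  have hinf : A ⊓ (MulAut.conj g • A) = ⊥ := by
    by_contra hne
    have h1 : Nat.card (A ⊓ (MulAut.conj g • A) : Subgroup G) ≠ 1 := by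
      rwa [Ne, Subgroup.card_eq_one]
    obtain ⟨k, hk, hkd⟩ := Nat.exists_prime_and_dvd h1
    have : Fact k.Prime := ⟨hk⟩
    obtain ⟨x, hx, hox⟩ := exists_mem_orderOf_eq hkd
    obtain ⟨hx1, hx2⟩ := Subgroup.mem_inf.1 hx
    have h2 := hG.eq_of_mem_inf hf (hf.conj_left g)
      (Cfsg.Agent.Lib.Helper1.card_conj_smul g A).symm hx2 (isPGroup_zpowers hox)
      (hG.centralizer_le hf hx1 hox)
    exact hg (Cfsg.Agent.Lib.Helper1.mem_normalizer_iff_conj_smul.2 h2)
  have h1 := Cfsg.Agent.Lib.Helper51.card_mul_card_le A (MulAut.conj g • A)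
  rw [hinf, Subgroup.card_bot, mul_one, Cfsg.Agent.Lib.Helper1.card_conj_smul] at h1
  have h2 : Nat.card (A ⊔ MulAut.conj g • A : Subgroup G) ≤ Nat.card G :=
    Subgroup.card_le_card_group _
  rw [hf.card_eq] at h2
  exact Nat.le_of_mul_le_mul_left (h1.trans h2) Nat.card_pos

theorem false (hG : MinCex G) (hf : Fac A B) : False := by
  have h1 := hG.card_le hf
  have h2 := hG.card_le hf.symm
  have h3 : Nat.card A = Nat.card B := le_antisymm h1 h2
  have h4 := hf.cop
  rw [← h3, Nat.coprime_self] at h4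
  obtain ⟨s, hs, -, hsA⟩ := hG.two_primes hf 2 Nat.prime_two
  rw [h4] at hsA
  exact hs.one_lt.ne' (Nat.dvd_one.1 hsA)

end MinCex

theorem wielandt_aux (n : ℕ) : ∀ (G : Type u) [Group G] [Finite G], Nat.card G = n →
    ∀ A B : Subgroup G, Fac A B → Group.IsSolvable G := by
  induction n using Nat.strong_induction_on with
  | _ n ih =>
  intro G _ _ hn A B hf
  subst hn
  by_contra hns
  exact MinCex.false ⟨hns, fun H _ _ hlt A' B' hf' => ih _ hlt H rfl A' B' hf'⟩ hf

/-- **Wielandt.**  A finite product of two nilpotent subgroups of coprime orders is solvable. -/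
theorem wielandt {G : Type u} [Group G] [Finite G] {A B : Subgroup G} (hf : Fac A B) :
    Group.IsSolvable G :=
  wielandt_aux _ G rfl A B hf

end Cfsg.Agent.Lib.Helper91.KW
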