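import Mathlib
import Cfsg.Agent.Lib.Helper91.KW1
import Cfsg.Agent.S0021
import Cfsg.Agent.S0199

/-!
Permutable `p`-subgroups: if every conjugate of `X` permutes with every conjugate of `Y`
(`X`, `Y` `p`-subgroups), then `[X, Y]` lies in a normal `p`-subgroup.
-/

set_option autoImplicit false

namespace Cfsg.Agent.Lib.Helper91.KW

open Subgroup
open scoped Pointwise commutatorElement

variable {G : Type*} [Group G]

/-- `H K = K H`. -/
def Perm (H K : Subgroup G) : Prop := (H : Set G) * (K : Set G) = (K : Set G) * (H : Set G)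

theorem Perm.symm {H K : Subgroup G} (h : Perm H K) : Perm K H := Eq.symm h

theorem perm_of_forall {H K : Subgroup G}
    (h : ∀ x ∈ H, ∀ k ∈ K, ∃ k' ∈ K, ∃ x' ∈ H, x * k = k' * x') : Perm H K := by
  apply Set.Subset.antisymm
  · rintro _ ⟨x, hx, k, hk, rfl⟩
    obtain ⟨k', hk', x', hx', e⟩ := h x hx k hk
    exact ⟨k', hk', x', hx', e.symm⟩
  · rintro _ ⟨k, hk, x, hx, rfl⟩
    obtain ⟨k', hk', x', hx', e⟩ := h x⁻¹ (inv_mem hx) k⁻¹ (inv_mem hk)
    refine ⟨x'⁻¹, inv_mem hx', k'⁻¹, inv_mem hk', ?_⟩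
    change x'⁻¹ * k'⁻¹ = k * x
    rw [← mul_inv_rev, ← e, mul_inv_rev, inv_inv, inv_inv]

theorem Perm.exists {H K : Subgroup G} (h : Perm H K) {x k : G} (hx : x ∈ H) (hk : k ∈ K) :
    ∃ k' ∈ K, ∃ x' ∈ H, x * k = k' * x' := by
  have h1 : x * k ∈ (K : Set G) * (H : Set G) := h ▸ Set.mul_mem_mul hx hk
  obtain ⟨k', hk', x', hx', e⟩ := h1
  exact ⟨k', hk', x', hx', e.symm⟩

theorem Perm.conj {H K : Subgroup G} (h : Perm H K) (g : G) :
    Perm (MulAut.conj g • H) (MulAut.conj g • K) := by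
  apply perm_of_forall
  intro x hx k hk
  rw [Cfsg.Agent.Lib.Helper1.mem_conj_smul_iff] at hx hk
  obtain ⟨k', hk', x', hx', e⟩ := h.exists hx hk
  refine ⟨g * k' * g⁻¹, ?_, g * x' * g⁻¹, ?_, ?_⟩
  · rw [Cfsg.Agent.Lib.Helper1.mem_conj_smul_iff]
    have : g⁻¹ * (g * k' * g⁻¹) * g = k' := by group
    rwa [this]
  · rw [Cfsg.Agent.Lib.Helper1.mem_conj_smul_iff]
    have : g⁻¹ * (g * x' * g⁻¹) * g = x' := by group
    rwa [this]
  · calc x * k = g * ((g⁻¹ * x * g) * (g⁻¹ * k * g)) * g⁻¹ := by group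
      _ = g * (k' * x') * g⁻¹ := by rw [e]
      _ = _ := by group

theorem perm_iSup {ι : Sort*} {H : ι → Subgroup G} {K : Subgroup G} (h : ∀ i, Perm (H i) K) :
    Perm (⨆ i, H i) K := by
  apply perm_of_forall
  intro x hx
  refine Subgroup.iSup_induction H
    (C := fun x => ∀ k ∈ K, ∃ k' ∈ K, ∃ x' ∈ ⨆ i, H i, x * k = k' * x') hx ?_ ?_ ?_
  · intro i x hx k hk
    obtain ⟨k', hk', x', hx', e⟩ := (h i).exists hx hk
    exact ⟨k', hk', x', Subgroup.mem_iSup_of_mem i hx', e⟩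
  · intro k hk
    exact ⟨k, hk, 1, one_mem _, by rw [one_mul, mul_one]⟩
  · intro x y ihx ihy k hk
    obtain ⟨k', hk', y', hy', e⟩ := ihy k hk
    obtain ⟨k'', hk'', x', hx', e'⟩ := ihx k' hk'
    exact ⟨k'', hk'', x' * y', mul_mem hx' hy', by
      rw [mul_assoc, e, ← mul_assoc, e', mul_assoc]⟩

theorem Perm.isPGroup_sup [Finite G] {p : ℕ} [Fact p.Prime] {H K : Subgroup G} (h : Perm H K)
    (hH : IsPGroup p H) (hK : IsPGroup p K) : IsPGroup p (H ⊔ K : Subgroup G) := by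
  obtain ⟨i, hi⟩ := IsPGroup.iff_card.1 hH
  obtain ⟨j, hj⟩ := IsPGroup.iff_card.1 hK
  have h1 := Cfsg.Agent.S0021.card_sup_dvd_of_comm H K h
  rw [hi, hj, ← pow_add] at h1
  obtain ⟨k, -, hk⟩ := (Nat.dvd_prime_pow Fact.out).1 h1
  exact IsPGroup.of_card hk

theorem conj_smul_iSup {ι : Sort*} (g : G) (H : ι → Subgroup G) :
    MulAut.conj g • (⨆ i, H i) = ⨆ i, MulAut.conj g • H i := by
  change (⨆ i, H i).map (MulAut.conj g).toMonoidHom = ⨆ i, (H i).map (MulAut.conj g).toMonoidHom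
  exact Subgroup.map_iSup _ _

/-- the join of the `Y`-conjugates of `X`. -/
def cl (X Y : Subgroup G) : Subgroup G := ⨆ y : Y, MulAut.conj (y : G) • X

theorem le_cl (X Y : Subgroup G) : X ≤ cl X Y := by
  unfold cl
  refine le_iSup_of_le (1 : Y) ?_
  rw [Subgroup.coe_one, map_one, one_smul]

theorem cl_le_sup (X Y : Subgroup G) : cl X Y ≤ X ⊔ Y := by
  refine iSup_le fun y => ?_
  intro g hg
  rw [Cfsg.Agent.Lib.Helper1.mem_conj_smul_iff] at hg
  have e : g = (y : G) * ((y : G)⁻¹ * g * y) * (y : G)⁻¹ := by group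
  rw [e]
  exact mul_mem (mul_mem (Subgroup.mem_sup_right y.2) (Subgroup.mem_sup_left hg))
    (inv_mem (Subgroup.mem_sup_right y.2))

theorem le_normalizer_cl [Finite G] (X Y : Subgroup G) : Y ≤ normalizer (cl X Y : Set G) := by
  intro y hy
  rw [Cfsg.Agent.Lib.Helper1.mem_normalizer_iff_conj_smul]
  apply Subgroup.eq_of_le_of_card_ge
  · unfold cl
    rw [conj_smul_iSup]
    refine iSup_le fun y' => ?_
    rw [← Cfsg.Agent.Lib.Helper1.conj_mul_smul]
    exact le_iSup_of_le (⟨y * y', mul_mem hy y'.2⟩ : Y) le_rfl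
  · rw [Cfsg.Agent.Lib.Helper1.card_conj_smul]

theorem perm_cl {X Y : Subgroup G}
    (h : ∀ g k : G, Perm (MulAut.conj g • X) (MulAut.conj k • Y)) :
    ∀ g k : G, Perm (MulAut.conj g • cl X Y) (MulAut.conj k • Y) := by
  intro g k
  unfold cl
  rw [conj_smul_iSup]
  apply perm_iSup
  intro y
  rw [← Cfsg.Agent.Lib.Helper1.conj_mul_smul]
  exact h _ _

/-- If all conjugates of the `p`-subgroups `X`, `Y` permute then `[X, Y]` lies in a normal
`p`-subgroup. -/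
theorem exists_normal_pGroup_of_perm [Finite G] {p : ℕ} [Fact p.Prime] {X Y : Subgroup G}
    (hX : IsPGroup p X) (hY : IsPGroup p Y)
    (h : ∀ g k : G, Perm (MulAut.conj g • X) (MulAut.conj k • Y)) :
    ∃ N : Subgroup G, N.Normal ∧ IsPGroup p N ∧ ⁅X, Y⁆ ≤ N := by
  have one_one : ∀ {U V : Subgroup G},
      (∀ g k : G, Perm (MulAut.conj g • U) (MulAut.conj k • V)) → Perm U V := by
    intro U V hUV
    have := hUV 1 1
    rwa [map_one, one_smul, one_smul] at this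
  set X₁ := cl X Y with hX₁
  have h1 : ∀ g k : G, Perm (MulAut.conj g • X₁) (MulAut.conj k • Y) := perm_cl h
  have hX₁p : IsPGroup p X₁ := ((one_one h).isPGroup_sup hX hY).to_le (cl_le_sup X Y)
  set Y₁ := cl Y X₁ with hY₁
  have h2 : ∀ g k : G, Perm (MulAut.conj g • Y₁) (MulAut.conj k • X₁) :=
    perm_cl (fun g k => (h1 k g).symm)
  have hY₁p : IsPGroup p Y₁ :=
    ((one_one h1).symm.isPGroup_sup hY hX₁p).to_le (cl_le_sup Y X₁)
  have n1 : Y ≤ normalizer (X₁ : Set G) := le_normalizer_cl X Y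
  have n2 : X₁ ≤ normalizer (Y₁ : Set G) := le_normalizer_cl Y X₁
  have n3 : Y₁ ≤ normalizer (X₁ : Set G) :=
    (cl_le_sup Y X₁).trans (sup_le n1 Subgroup.le_normalizer)
  have hcomm : ⁅X₁, Y₁⁆ ≤ X₁ ⊓ Y₁ := by
    rw [Subgroup.commutator_le]
    intro x hx y hy
    refine Subgroup.mem_inf.2 ⟨?_, ?_⟩
    · rw [commutatorElement_def, mul_assoc, mul_assoc]
      apply mul_mem hx
      rw [← mul_assoc]
      exact (Subgroup.mem_normalizer_iff.1 (n3 hy) x⁻¹).1 (inv_mem hx)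
    · rw [commutatorElement_def]
      exact mul_mem ((Subgroup.mem_normalizer_iff.1 (n2 hx) y).1 hy) (inv_mem hy)
  obtain ⟨N, hN1, hN2, hN3⟩ := Cfsg.Agent.S0199.result (X₁ ⊓ Y₁) (hX₁p.to_le inf_le_left) (by
    intro g
    have h3 : Perm X₁ (MulAut.conj g • Y₁) := by
      have := (h2 g 1).symm
      rwa [map_one, one_smul] at this
    have h4 : IsPGroup p (X₁ ⊔ MulAut.conj g • Y₁ : Subgroup G) :=
      h3.isPGroup_sup hX₁p (hY₁p.map _)
    apply h4.to_le
    apply sup_le_sup inf_le_left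
    exact Subgroup.map_mono inf_le_right)
  exact ⟨N, hN1, hN2, (Subgroup.commutator_mono (le_cl X Y) (le_cl Y X₁)).trans
    (hcomm.trans hN3)⟩

end Cfsg.Agent.Lib.Helper91.KW
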