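import Mathlib
import Cfsg.Agent.Lib.Helper91.KW7
import Cfsg.Agent.Lib.Helper91.KW8
import Cfsg.Agent.S0560

/-!
The Kegel-Wielandt theorem: a finite product of two nilpotent subgroups is solvable.
-/

set_option autoImplicit false

namespace Cfsg.Agent.Lib.Helper91.KW

open Subgroup
open scoped Pointwise commutatorElement

universe u

theorem kegel_wielandt_aux (n : ℕ) : ∀ (G : Type u) [Group G] [Finite G], Nat.card G = n →
    ∀ A B : Subgroup G, Group.IsNilpotent A → Group.IsNilpotent B →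
      (∀ g : G, ∃ a ∈ A, ∃ b ∈ B, g = a * b) → Group.IsSolvable G := by
  induction n using Nat.strong_induction_on with
  | _ n ih =>
  intro G _ _ hn A B hA hB hAB
  subst hn
  by_contra hns
  -- proper quotients are solvable
  have hquot : ∀ (N : Subgroup G) [N.Normal], N ≠ ⊥ → Group.IsSolvable (G ⧸ N) := by
    intro N hN hne
    apply ih _ (Cfsg.Agent.Lib.Helper1.card_quotient_lt_of_ne_bot hne) (G ⧸ N) rfl
      (A.map (QuotientGroup.mk' N)) (B.map (QuotientGroup.mk' N)) (isNilpotent_map _ hA)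
      (isNilpotent_map _ hB)
    intro g
    obtain ⟨g', rfl⟩ := QuotientGroup.mk'_surjective N g
    obtain ⟨a, ha, b, hb, e⟩ := hAB g'
    exact ⟨_, Subgroup.mem_map_of_mem _ ha, _, Subgroup.mem_map_of_mem _ hb, by
      rw [e, map_mul]⟩
  have hrad : ∀ N : Subgroup G, N.Normal → Group.IsSolvable N → N = ⊥ := by
    intro N hN hs
    by_contra hne
    have := hquot N hne
    exact hns (Group.isSolvable_of_ker_le_range N.subtype (QuotientGroup.mk' N)
      (by rw [QuotientGroup.ker_mk', Subgroup.range_subtype]))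
  by_cases hcop : (Nat.card A).Coprime (Nat.card B)
  · exact hns (wielandt ⟨hA, hB, hcop, hAB⟩)
  obtain ⟨p, hp, hpA, hpB⟩ := Nat.Prime.not_coprime_iff_dvd.1 hcop
  have : Fact p.Prime := ⟨hp⟩
  set X := syl A p with hX
  set Y := syl B p with hY
  have hAX : A ≤ normalizer (X : Set G) := le_normalizer_syl hA
  have hBY : B ≤ normalizer (Y : Set G) := le_normalizer_syl hB
  have hXY : Perm X Y := by
    obtain ⟨P, Q, R, hR⟩ := Cfsg.Agent.S0560.result A B hAB p
    obtain ⟨h1, h2, h3⟩ := Cfsg.Agent.Lib.Helper1.sylow_map_subtype_props P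
    obtain ⟨h4, h5, h6⟩ := Cfsg.Agent.Lib.Helper1.sylow_map_subtype_props Q
    rw [syl_eq hA h1 h2 h3, syl_eq hB h4 h5 h6] at hR
    have hXR : ∀ x ∈ X, x ∈ (R : Subgroup G) := by
      intro x hx
      rw [← SetLike.mem_coe, hR]
      exact ⟨x, hx, 1, one_mem _, mul_one x⟩
    have hYR : ∀ y ∈ Y, y ∈ (R : Subgroup G) := by
      intro y hy
      rw [← SetLike.mem_coe, hR]
      exact ⟨1, one_mem _, y, hy, one_mul y⟩
    apply perm_of_forall
    intro x hx y hy
    have h7 : (x * y)⁻¹ ∈ (R : Subgroup G) := inv_mem (mul_mem (hXR x hx) (hYR y hy))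
    rw [← SetLike.mem_coe, hR] at h7
    obtain ⟨x', hx', y', hy', e⟩ := h7
    refine ⟨y'⁻¹, inv_mem hy', x'⁻¹, inv_mem hx', ?_⟩
    have e' : x' * y' = (x * y)⁻¹ := e
    rw [← mul_inv_rev, e', inv_inv]
  have hperm : ∀ g k : G, Perm (MulAut.conj g • X) (MulAut.conj k • Y) := by
    intro g k
    obtain ⟨a, ha, b, hb, e⟩ := hAB (g⁻¹ * k)
    have e1 : MulAut.conj g • X = MulAut.conj (g * a) • X := by
      rw [Cfsg.Agent.Lib.Helper1.conj_mul_smul,
        Cfsg.Agent.Lib.Helper1.mem_normalizer_iff_conj_smul.1 (hAX ha)]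
    have e2 : MulAut.conj k • Y = MulAut.conj (g * a) • Y := by
      have : k = g * a * b := by rw [mul_assoc, ← e, mul_inv_cancel_left]
      rw [this, Cfsg.Agent.Lib.Helper1.conj_mul_smul (g * a) b,
        Cfsg.Agent.Lib.Helper1.mem_normalizer_iff_conj_smul.1 (hBY hb)]
    rw [e1, e2]
    exact hXY.conj _
  obtain ⟨N, hN1, hN2, hN3⟩ := exists_normal_pGroup_of_perm syl_isPGroup syl_isPGroup hperm
  have hN0 : N = ⊥ := hrad N hN1 (by
    have := hN2.isNilpotent
    infer_instance)
  have hcomm : ∀ x ∈ X, ∀ y ∈ Y, x * y = y * x := by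
    intro x hx y hy
    have h1 : ⁅x, y⁆ ∈ N := hN3 (Subgroup.commutator_mem_commutator hx hy)
    rw [hN0, Subgroup.mem_bot, commutatorElement_eq_one_iff_mul_comm] at h1
    exact h1
  obtain ⟨z, hzX, hz1, hzc⟩ := exists_central_of_normal_in_nilpotent hA
    (syl_le (A := A) (p := p)) hAX (syl_ne_bot hpA)
  set W := Subgroup.normalClosure ({z} : Set G) with hW
  have hWn : W.Normal := Subgroup.normalClosure_normal
  have hzW : z ∈ W := Subgroup.subset_normalClosure (Set.mem_singleton z)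
  have hWne : W ≠ ⊥ := by
    intro h
    rw [h, Subgroup.mem_bot] at hzW
    exact hz1 hzW
  set C := centralizer (W : Set G) with hC
  have hCn : C.Normal := inferInstance
  have hYC : Y ≤ C := by
    intro y hy
    have h1 : W ≤ centralizer ({y} : Set G) := by
      change Subgroup.closure _ ≤ _
      rw [Subgroup.closure_le]
      intro w hw
      rw [Group.mem_conjugatesOfSet_iff] at hw
      obtain ⟨z', hz', hconj⟩ := hw
      rw [Set.mem_singleton_iff] at hz'
      subst hz'
      rw [isConj_iff] at hconj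
      obtain ⟨g, rfl⟩ := hconj
      obtain ⟨a, ha, b, hb, e⟩ := hAB g⁻¹
      have eg : g = b⁻¹ * a⁻¹ := by rw [← mul_inv_rev, ← e, inv_inv]
      have e1 : g * z' * g⁻¹ = b⁻¹ * z' * b := by
        have h2 : a⁻¹ * z' * a = z' := by
          rw [mul_assoc, ← hzc a ha, inv_mul_cancel_left]
        calc g * z' * g⁻¹ = b⁻¹ * (a⁻¹ * z' * a) * b := by rw [eg]; group
          _ = b⁻¹ * z' * b := by rw [h2]
      rw [SetLike.mem_coe, Subgroup.mem_centralizer_singleton_iff, e1]
      have h3 : b * y * b⁻¹ ∈ Y := (Subgroup.mem_normalizer_iff.1 (hBY hb) y).1 hy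
      have h4 := hcomm z' hzX _ h3
      calc b⁻¹ * z' * b * y = b⁻¹ * (z' * (b * y * b⁻¹)) * b := by group
        _ = b⁻¹ * ((b * y * b⁻¹) * z') * b := by rw [h4]
        _ = y * (b⁻¹ * z' * b) := by group
    rw [hC, Subgroup.mem_centralizer_iff]
    intro w hw
    exact Subgroup.mem_centralizer_singleton_iff.1 (h1 hw)
  have hCne : C ≠ ⊥ := by
    intro h
    exact syl_ne_bot hpB (le_bot_iff.1 (h ▸ hYC))
  have hWC : W ⊓ C = ⊥ := by
    apply hrad _ inferInstance
    apply Group.isSolvable_of_comm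
    intro u v
    apply Subtype.ext
    exact (Subgroup.mem_centralizer_iff.1 (Subgroup.mem_inf.1 v.2).2 u
      (Subgroup.mem_inf.1 u.2).1)
  have hGC := hquot C hCne
  apply hWne
  apply hrad W hWn
  apply Group.isSolvable_of_isSolvable_injective (f := (QuotientGroup.mk' C).comp W.subtype)
  rw [injective_iff_map_eq_one]
  intro w hw
  have h1 : (w : G) ∈ C := by
    rw [← QuotientGroup.eq_one_iff]
    exact hw
  have h2 : (w : G) ∈ W ⊓ C := Subgroup.mem_inf.2 ⟨w.2, h1⟩
  rw [hWC, Subgroup.mem_bot] at h2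
  exact Subtype.ext h2

/-- **Kegel-Wielandt.** -/
theorem kegel_wielandt {G : Type u} [Group G] [Finite G] (A B : Subgroup G)
    (hA : Group.IsNilpotent A) (hB : Group.IsNilpotent B)
    (hAB : ∀ g : G, ∃ a ∈ A, ∃ b ∈ B, g = a * b) : Group.IsSolvable G :=
  kegel_wielandt_aux _ G rfl A B hA hB hAB

end Cfsg.Agent.Lib.Helper91.KW
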